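import Cfsg.Agent.SpO90.Quad

/-!
`W × W` with the alternating form of the tensor product of a hyperbolic plane and an orthogonal space,
and a subgroup containing the isometries of both factors.
-/

set_option autoImplicit false
set_option linter.unusedSectionVars false

namespace CfsgLib.SpO90

open Module

variable {F : Type*} [Field F] [Finite F] {W : Type*} [AddCommGroup W] [Module F W] [FiniteDimensional F W]

/-- The alternating form on `W × W`. -/
def om (β : LinearMap.BilinForm F W) (p q : W × W) : F := β p.1 q.2 - β p.2 q.1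

/-- The Kronecker product of a two by two matrix and `o`. -/
def kr (a b c d : F) (o : W →ₗ[F] W) : (W × W) →ₗ[F] (W × W) :=
  ((a • o).coprod (b • o)).prod ((c • o).coprod (d • o))

@[simp] lemma kr_apply (a b c d : F) (o : W →ₗ[F] W) (p : W × W) :
    kr a b c d o p = (a • o p.1 + b • o p.2, c • o p.1 + d • o p.2) := by
  simp [kr]

variable (β : LinearMap.BilinForm F W)

/-- `M` preserves the form and contains both factors. -/
structure Hyp (M : Subgroup ((W × W) ≃ₗ[F] (W × W))) : Prop extends Sym β where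
  iso : ∀ g ∈ M, ∀ p q, om β (g p) (g q) = om β p q
  kr_mem : ∀ (o : W →ₗ[F] W) (a b c d : F), IsIso β o → a * d - b * c = 1 →
    ∃ g ∈ M, ∀ p, g p = kr a b c d o p
  odd : Odd (finrank F W)
  low : 3 ≤ finrank F W
  high : finrank F W ≤ 5
  three : finrank F W = 3 → 5 ≤ Nat.card F

/-- `g` is a Kronecker product. -/
def Tens (g : (W × W) ≃ₗ[F] (W × W)) : Prop :=
  ∃ (a b c d : F) (o : W →ₗ[F] W), IsIso β o ∧ a * d - b * c = 1 ∧ ∀ p, g p = kr a b c d o p

/-- The member `{(x, 0)}`. -/
def base : Submodule F (W × W) := LinearMap.ker (LinearMap.snd F W W)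

/-- The image of the member `{(x, 0)}`. -/
def img (g : (W × W) ≃ₗ[F] (W × W)) : Submodule F (W × W) := (base (F := F) (W := W)).map g.toLinearMap

/-- The dimension in which the image meets the member. -/
noncomputable def meet (g : (W × W) ≃ₗ[F] (W × W)) : ℕ := finrank F ↥(img g ⊓ base)

/-- Elements of `M` whose image meets the member in dimension `k` or more fix it. -/
def Fixes (M : Subgroup ((W × W) ≃ₗ[F] (W × W))) (k : ℕ) : Prop :=
  ∀ g ∈ M, k ≤ meet g → img g = base

variable {β} {M : Subgroup ((W × W) ≃ₗ[F] (W × W))} {g k : (W × W) ≃ₗ[F] (W × W)}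

lemma mem_base {p : W × W} : p ∈ (base : Submodule F (W × W)) ↔ p.2 = 0 := LinearMap.mem_ker

lemma inv_app (g : (W × W) ≃ₗ[F] (W × W)) (p : W × W) : g⁻¹ (g p) = p := g.symm_apply_apply p

lemma app_inv (g : (W × W) ≃ₗ[F] (W × W)) (p : W × W) : g (g⁻¹ p) = p := g.apply_symm_apply p

lemma mem_img {p : W × W} : p ∈ img g ↔ (g⁻¹ p).2 = 0 := by
  constructor
  · rintro ⟨q, hq, rfl⟩
    rw [LinearEquiv.coe_coe, inv_app]
    exact mem_base.1 hq
  · exact fun h => ⟨g⁻¹ p, mem_base.2 h, app_inv g p⟩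

lemma app_mem_img (x : W) : g (x, 0) ∈ img g := ⟨(x, 0), mem_base.2 rfl, rfl⟩

lemma finrank_base : finrank F (base : Submodule F (W × W)) = finrank F W := by
  have h := LinearMap.finrank_range_add_finrank_ker (LinearMap.snd F W W)
  rw [LinearMap.range_eq_top.2 (fun x => ⟨(0, x), rfl⟩), finrank_top, finrank_prod] at h
  show finrank F (LinearMap.ker (LinearMap.snd F W W)) = _
  omega

lemma finrank_img : finrank F (img g) = finrank F W := by
  rw [← finrank_base (F := F) (W := W)]
  exact (Submodule.equivMapOfInjective _ g.injective _).finrank_eq.symm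

lemma img_mul (g k : (W × W) ≃ₗ[F] (W × W)) : img (g * k) = (img k).map g.toLinearMap := by
  simp only [img, ← Submodule.map_comp]
  rfl

lemma img_eq_base_iff : img g = base ↔ ∀ x : W, (g (x, 0)).2 = 0 := by
  refine ⟨fun h x => mem_base.1 (h ▸ app_mem_img x), fun h => ?_⟩
  refine Submodule.eq_of_le_of_finrank_le ?_ (by rw [finrank_img, finrank_base])
  rintro _ ⟨⟨x, y⟩, hp, rfl⟩
  obtain rfl : y = 0 := mem_base.1 hp
  exact mem_base.2 (h x)

lemma meet_le : meet g ≤ finrank F W := by
  rw [meet, ← finrank_base (F := F) (W := W)]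
  exact Submodule.finrank_mono inf_le_right

lemma fixes_top (n : ℕ) (hn : finrank F W ≤ n) : Fixes M n := fun g _ h => by
  have h1 : img g ⊓ base = img g := Submodule.eq_of_le_of_finrank_le inf_le_left (by
    rw [finrank_img]; unfold meet at h; omega)
  exact Submodule.eq_of_le_of_finrank_le (inf_eq_left.1 h1) (by rw [finrank_img, finrank_base])

lemma Fixes.mono {n n' : ℕ} (h : Fixes M n) (hn : n ≤ n') : Fixes M n' := fun g hg hk => h g hg (hn.trans hk)

namespace Hyp

lemma sym (h : Hyp β M) : Sym β := h.toSym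

lemma om_img (h : Hyp β M) (hg : g ∈ M) {p q : W × W} (hp : p ∈ img g) (hq : q ∈ img g) : om β p q = 0 := by
  obtain ⟨p', hp', rfl⟩ := hp
  obtain ⟨q', hq', rfl⟩ := hq
  rw [LinearEquiv.coe_coe, h.iso g hg, om, mem_base.1 hp', mem_base.1 hq']
  simp

/-- The shear `t_c`. -/
lemma exists_shear (h : Hyp β M) (c : F) : ∃ t ∈ M, ∀ p, t p = (p.1 + c • p.2, p.2) := by
  obtain ⟨t, ht, htp⟩ := h.kr_mem LinearMap.id 1 c 0 1 isIso_id (by ring)
  exact ⟨t, ht, fun p => by simp [htp]⟩

/-- The reflection on the second factor. -/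
lemma exists_refl (h : Hyp β M) (v : W) : ∃ r ∈ M, ∀ p, r p = (refl β v p.1, refl β v p.2) := by
  obtain ⟨t, ht, htp⟩ := h.kr_mem (refl β v) 1 0 0 1 (h.sym.refl_isIso v) (by ring)
  exact ⟨t, ht, fun p => by simp [htp]⟩

end Hyp

lemma isIso_comp_inv (h : Sym β) {o : W →ₗ[F] W} (ho : IsIso β o) :
    ∃ o' : W →ₗ[F] W, IsIso β o' ∧ (∀ x, o' (o x) = x) ∧ ∀ x, o (o' x) = x := by
  let e := LinearEquiv.ofInjectiveEndo o (h.iso_injective ho)
  refine ⟨e.symm.toLinearMap, fun x y => ?_, fun x => e.symm_apply_apply x, fun x => e.apply_symm_apply x⟩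
  conv_rhs => rw [← e.apply_symm_apply x, ← e.apply_symm_apply y]
  exact (ho _ _).symm

lemma Tens.mul {g g' : (W × W) ≃ₗ[F] (W × W)} (hg : Tens β g) (hg' : Tens β g') : Tens β (g * g') := by
  obtain ⟨a, b, c, d, o, ho, hdet, hp⟩ := hg
  obtain ⟨a', b', c', d', o', ho', hdet', hp'⟩ := hg'
  refine ⟨a * a' + b * c', a * b' + b * d', c * a' + d * c', c * b' + d * d', o ∘ₗ o', ho.comp ho',
    by linear_combination (a' * d' - b' * c') * hdet + hdet', fun p => ?_⟩
  show g (g' p) = _
  simp only [hp, hp', kr_apply, map_add, map_smul, LinearMap.comp_apply, smul_add, smul_smul, add_smul,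
    Prod.mk.injEq]
  constructor <;> abel

lemma Tens.inv (h : Sym β) (hg : Tens β g) : Tens β g⁻¹ := by
  obtain ⟨a, b, c, d, o, ho, hdet, hp⟩ := hg
  obtain ⟨o', ho', h1, h2⟩ := isIso_comp_inv h ho
  refine ⟨d, -b, -c, a, o', ho', by linear_combination hdet, fun p => g.injective ?_⟩
  rw [app_inv]
  simp only [hp, kr_apply, map_add, map_smul, h2]
  ext
  · calc p.1 = (a * d - b * c) • p.1 := by rw [hdet, one_smul]
      _ = _ := by simp only; match_scalars <;> ring
  · calc p.2 = (a * d - b * c) • p.2 := by rw [hdet, one_smul]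
      _ = _ := by simp only; match_scalars <;> ring

end CfsgLib.SpO90
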