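import Cfsg.Agent.SpO90.Main
import Cfsg.Agent.FormTensor91.MatrixForm

/-!
Maximality of the stabiliser of a tensor decomposition into a plane and an orthogonal space of dimension
three or five.
-/

set_option autoImplicit false
set_option linter.unusedSectionVars false

namespace CfsgLib.SpO90

open Module Matrix Cfsg.Geo CfsgLib.OrthGeo CfsgLib.FormTensor89 CfsgLib.FieldExtMax CfsgLib.FormTensor91
open CfsgLib.SympFormStd CfsgLib.TransvGL CfsgLib.AltFormTransv

variable {F : Type*} [Field F] [Fintype F]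

/-- The stabiliser of a plane-by-orthogonal tensor decomposition is maximal, `q ≥ 5`. -/
theorem symp_plane_tensor_isMaximal (m n : ℕ) (hodd : Odd (Fintype.card F)) (hq : 5 ≤ Fintype.card F)
    (hn : Odd n) (h3 : 3 ≤ n) (h5 : n ≤ 5) (e : (Fin m ⊕ Fin m) ≃ Fin 2 × Fin n)
    (P : Matrix.GeneralLinearGroup (Fin m ⊕ Fin m) F)
    {f₁ : (Fin 2 → F) → (Fin 2 → F) → F} {f₂ : (Fin n → F) → (Fin n → F) → F}
    (hf₁ : IsSymplecticForm f₁) (hf₂ : IsSymmetricForm f₂)
    (hT : IsTensorFormStructure id (Cfsg.sympForm m F) f₁ f₂ e P) :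
    IsMaximalIn (Cfsg.spGL m F) (tensorProductSubgroup 2 n e P ⊓ Cfsg.spGL m F) := by
  classical
  have hf := isSymplecticForm m F
  obtain ⟨c, hc, hcT⟩ := hT
  refine ⟨lt_of_le_of_ne inf_le_right fun h => ?_, fun M hHM hMG => ?_⟩
  · exact CfsgLib.Aschbacher.Symp.not_le_tensorProductSubgroup hf sympT_mem_spGL le_rfl
      (by omega) e P (h.ge.trans inf_le_left)
  have h2 : (2 : F) ≠ 0 := by
    refine Ring.two_ne_zero fun h => ?_
    have := (FiniteField.even_card_iff_char_two (F := F)).1 h
    rw [Nat.odd_iff] at hodd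
    omega
  have hten : ∀ u z u' z', Cfsg.sympForm m F (tenLin e P u z) (tenLin e P u' z') =
      c * f₁ u u' * f₂ z z' := fun u z u' z' => by
    rw [tenLin_apply, tenLin_apply, hcT, formOfGram_pureTen hf₁.bilinear hf₂.bilinear, mul_assoc]
  let e₀ : Fin 2 → F := Pi.single 0 1
  let e₁ : Fin 2 → F := Pi.single 1 1
  have hdec : ∀ u : Fin 2 → F, u = u 0 • e₀ + u 1 • e₁ := fun u => by
    funext i; fin_cases i <;> simp [e₀, e₁]
  have hb := hf₁.bilinear
  set d := c * f₁ e₀ e₁ with hd
  have hskew : f₁ e₁ e₀ = - f₁ e₀ e₁ := hf₁.skew e₁ e₀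
  have hf₁dec : ∀ u u', f₁ u u' = (u 0 * u' 1 - u 1 * u' 0) * f₁ e₀ e₁ := fun u u' => by
    conv_lhs => rw [hdec u, hdec u']
    rw [← bilinOf_apply hb]
    simp only [map_add, map_smul, LinearMap.add_apply, LinearMap.smul_apply, smul_eq_mul, bilinOf_apply,
      hf₁.alternating, hskew]
    ring
  have hd0 : d ≠ 0 := by
    refine mul_ne_zero hc fun h0 => ?_
    obtain ⟨⟨y, hy⟩, -⟩ := hf₁.nondegenerate e₀ (by simp [e₀])
    exact hy (by rw [hf₁dec, h0, mul_zero])
  set β : LinearMap.BilinForm F (Fin n → F) := d • bilinOf hf₂.bilinear with hβ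
  set L : (Fin n → F) × (Fin n → F) →ₗ[F] (Fin m ⊕ Fin m → F) :=
    (tenLin e P e₀).coprod (tenLin e P e₁) with hL
  have hLu : ∀ u z, L (u 0 • z, u 1 • z) = tenLin e P u z := fun u z => by
    conv_rhs => rw [hdec u]
    simp [hL]
  have hLsurj : Function.Surjective L := by
    rw [← LinearMap.range_eq_top, eq_top_iff, ← tenLin_span e P, Submodule.span_le]
    rintro _ ⟨u, z, rfl⟩
    exact ⟨_, hLu u z⟩
  have hdim : finrank F ((Fin n → F) × (Fin n → F)) = finrank F (Fin m ⊕ Fin m → F) := by
    have := Fintype.card_congr e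
    simp only [Fintype.card_sum, Fintype.card_fin, Fintype.card_prod] at this
    rw [finrank_prod, finrank_fin_fun, finrank_fintype_fun_eq_card, Fintype.card_sum, Fintype.card_fin]
    omega
  let Φ : ((Fin n → F) × (Fin n → F)) ≃ₗ[F] (Fin m ⊕ Fin m → F) :=
    LinearEquiv.ofBijective L ⟨(LinearMap.injective_iff_surjective_of_finrank_eq_finrank hdim).2 hLsurj, hLsurj⟩
  have hΦ : ∀ p, Φ p = tenLin e P e₀ p.1 + tenLin e P e₁ p.2 := fun p => rfl
  have hform : ∀ p q, Cfsg.sympForm m F (Φ p) (Φ q) = om β p q := fun p q => by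
    rw [hΦ, hΦ, ← bilinOf_apply hf.bilinear]
    simp only [map_add, LinearMap.add_apply, bilinOf_apply, hten, hf₁.alternating, hskew, om, hβ,
      LinearMap.smul_apply, smul_eq_mul, hd]
    ring
  let C : (((Fin n → F) × (Fin n → F)) ≃ₗ[F] ((Fin n → F) × (Fin n → F))) →* GL (Fin m ⊕ Fin m) F :=
    { toFun := fun k => glEquiv.symm (Φ.symm.trans (k.trans Φ))
      map_one' := by
        rw [MulEquiv.map_eq_one_iff]
        exact LinearEquiv.ext fun X => Φ.apply_symm_apply X
      map_mul' := fun k k' => by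
        rw [← map_mul]
        congr 1
        refine LinearEquiv.ext fun X => ?_
        show Φ (k (k' (Φ.symm X))) = Φ (k (Φ.symm (Φ (k' (Φ.symm X)))))
        rw [Φ.symm_apply_apply] }
  have hCa : ∀ k X, (C k : Matrix (Fin m ⊕ Fin m) (Fin m ⊕ Fin m) F) *ᵥ Φ X = Φ (k X) := fun k X => by
    rw [← glEquiv_apply]
    show glEquiv (glEquiv.symm (Φ.symm.trans (k.trans Φ))) (Φ X) = _
    rw [MulEquiv.apply_symm_apply]
    show Φ (k (Φ.symm (Φ X))) = _
    rw [Φ.symm_apply_apply]
  have hCsurj : ∀ g, ∃ k, C k = g := fun g =>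
    ⟨Φ.trans ((glEquiv g).trans Φ.symm), by
      show glEquiv.symm _ = g
      rw [MulEquiv.symm_apply_eq]
      refine LinearEquiv.ext fun X => ?_
      show Φ (Φ.symm (glEquiv g (Φ (Φ.symm X)))) = glEquiv g X
      rw [Φ.apply_symm_apply, Φ.apply_symm_apply]⟩
  have hiso : ∀ k, C k ∈ Cfsg.spGL m F ↔ ∀ p q, om β (k p) (k q) = om β p q := fun k => by
    rw [mem_spGL]
    refine ⟨fun h p q => by rw [← hform, ← hform, ← hCa, ← hCa, h], fun h X Y => ?_⟩
    obtain ⟨p, rfl⟩ := Φ.surjective X
    obtain ⟨q, rfl⟩ := Φ.surjective Y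
    rw [hCa, hCa, hform, hform, h]
  have hmemT : ∀ (k : ((Fin n → F) × (Fin n → F)) ≃ₗ[F] ((Fin n → F) × (Fin n → F))) (a b c' d' : F)
      (o : (Fin n → F) →ₗ[F] (Fin n → F)), a * d' - b * c' = 1 → (∀ p, k p = kr a b c' d' o p) →
      C k ∈ tensorProductSubgroup 2 n e P := by
    intro k a b c' d' o hdet hk
    let A : (Fin 2 → F) →ₗ[F] (Fin 2 → F) := Matrix.toLin' !![a, b; c', d']
    have hA : Function.Bijective A := by
      have hu : IsUnit (!![a, b; c', d'] : Matrix (Fin 2) (Fin 2) F) := by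
        rw [Matrix.isUnit_iff_isUnit_det, Matrix.det_fin_two_of, hdet]; exact isUnit_one
      exact ⟨Matrix.mulVec_injective_iff_isUnit.2 hu, Matrix.mulVec_surjective_iff_isUnit.2 hu⟩
    refine mem_tensor_of_pure (by omega) e P (C k) (LinearEquiv.ofBijective A hA) o fun u z => ?_
    rw [← hLu u z, show L (u 0 • z, u 1 • z) = Φ (u 0 • z, u 1 • z) from rfl, hCa, hk,
      LinearEquiv.ofBijective_apply, ← hLu (A u) (o z)]
    show Φ _ = Φ _
    congr 1
    simp [A, Matrix.toLin'_apply, Matrix.mulVec, Matrix.vecHead, Matrix.vecTail, add_smul, smul_smul]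
  set M' := M.comap C with hM'
  have H : Hyp β M' :=
    { two_ne := h2
      symm := fun x y => by simp [hβ, bilinOf_apply, hf₂.symm x y]
      nondeg := fun x hx => bilinOf_nondeg hf₂.bilinear hf₂.nondegenerate x fun y =>
        (mul_eq_zero.1 (hx y)).resolve_left hd0
      iso := fun g hg => (hiso g).1 (hMG hg)
      kr_mem := fun o a b c' d' ho hdet => by
        have hs : Sym β := ⟨h2, fun x y => by simp [hβ, bilinOf_apply, hf₂.symm x y], fun x hx =>
          bilinOf_nondeg hf₂.bilinear hf₂.nondegenerate x fun y => (mul_eq_zero.1 (hx y)).resolve_left hd0⟩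
        obtain ⟨o', -, h1, h1'⟩ := isIso_comp_inv hs ho
        let k : ((Fin n → F) × (Fin n → F)) ≃ₗ[F] ((Fin n → F) × (Fin n → F)) :=
          LinearEquiv.ofLinear (kr a b c' d' o) (kr d' (-b) (-c') a o')
            (LinearMap.ext fun p => by
              simp only [LinearMap.comp_apply, kr_apply, map_add, map_smul, h1', LinearMap.id_apply]
              ext <;>
              · simp only [Pi.add_apply, Pi.smul_apply, smul_eq_mul]
                first
                | linear_combination (p.1 _) * hdet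
                | linear_combination (p.2 _) * hdet)
            (LinearMap.ext fun p => by
              simp only [LinearMap.comp_apply, kr_apply, map_add, map_smul, h1, LinearMap.id_apply]
              ext <;>
              · simp only [Pi.add_apply, Pi.smul_apply, smul_eq_mul]
                first
                | linear_combination (p.1 _) * hdet
                | linear_combination (p.2 _) * hdet)
        refine ⟨k, hHM ⟨hmemT k a b c' d' o hdet fun p => rfl, (hiso k).2 fun p q => ?_⟩, fun p => rfl⟩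
        show om β (kr a b c' d' o p) (kr a b c' d' o q) = _
        simp only [om, kr_apply, map_add, map_smul, LinearMap.add_apply, LinearMap.smul_apply, ho _ _, smul_eq_mul]
        linear_combination (β p.1 q.2 - β p.2 q.1) * hdet
      odd := by rwa [finrank_fin_fun]
      low := by rwa [finrank_fin_fun]
      high := by rwa [finrank_fin_fun]
      three := fun _ => by rwa [Nat.card_eq_fintype_card] }
  rcases tens_or_cen H (by rwa [Nat.card_eq_fintype_card]) with hall | hcen
  · refine Or.inl (le_antisymm (fun g hg => ⟨?_, hMG hg⟩) hHM)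
    obtain ⟨k, rfl⟩ := hCsurj g
    obtain ⟨a, b, c', d', o, -, hdet, hk⟩ := hall k hg
    exact hmemT k a b c' d' o hdet hk
  · refine Or.inr (le_antisymm hMG (spGL_le_of_sympT_mem M fun v r => ?_))
    obtain ⟨k, hk, hkv⟩ := hcen (Φ.symm v) r
    have : C k = sympT hf v r := ext_mulVec fun X => by
      obtain ⟨p, rfl⟩ := Φ.surjective X
      rw [hCa, hkv, sympT_mulVec, map_add, map_smul, Φ.apply_symm_apply]
      congr 2
      rw [← hform, Φ.apply_symm_apply]
    rw [← this]
    exact hk

end CfsgLib.SpO90
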