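import Mathlib

/-!
Elementary facts on a non-degenerate symmetric bilinear form over a finite field of odd order.
-/

set_option autoImplicit false
set_option linter.unusedSectionVars false

namespace CfsgLib.SpO90

open Module

variable {F : Type*} [Field F] [Finite F] {W : Type*} [AddCommGroup W] [Module F W] [FiniteDimensional F W]

/-- A symmetric non-degenerate form in odd characteristic. -/
structure Sym (β : LinearMap.BilinForm F W) : Prop where
  two_ne : (2 : F) ≠ 0
  symm : ∀ x y, β x y = β y x
  nondeg : ∀ x, (∀ y, β x y = 0) → x = 0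

/-- The restriction to `B` is non-degenerate. -/
def ND (β : LinearMap.BilinForm F W) (B : Submodule F W) : Prop :=
  ∀ x ∈ B, (∀ y ∈ B, β x y = 0) → x = 0

/-- An isometry. -/
def IsIso (β : LinearMap.BilinForm F W) (o : W →ₗ[F] W) : Prop := ∀ x y, β (o x) (o y) = β x y

/-- The orthogonal subspace. -/
def perp (β : LinearMap.BilinForm F W) (B : Submodule F W) : Submodule F W :=
  LinearMap.BilinForm.orthogonal β B

/-- The reflection in `v`. -/
noncomputable def refl (β : LinearMap.BilinForm F W) (v : W) : W →ₗ[F] W :=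
  LinearMap.id - (2 / β v v) • (β v).smulRight v

variable {β : LinearMap.BilinForm F W}

lemma refl_apply (v x : W) : refl β v x = x - (2 / β v v * β v x) • v := by
  simp [refl, smul_smul]

lemma mem_perp {B : Submodule F W} {x : W} : x ∈ perp β B ↔ ∀ a ∈ B, β a x = 0 := Iff.rfl

lemma mem_perp_single {v x : W} : x ∈ perp β (F ∙ v) ↔ β v x = 0 := by
  rw [mem_perp]
  refine ⟨fun h => h v (Submodule.mem_span_singleton_self v), fun h a ha => ?_⟩
  obtain ⟨c, rfl⟩ := Submodule.mem_span_singleton.1 ha
  simp [h]

namespace Sym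

lemma isRefl (h : Sym β) : β.IsRefl := fun x y hxy => by rw [h.symm]; exact hxy

lemma nondegenerate (h : Sym β) : β.Nondegenerate :=
  ⟨h.nondeg, fun y hy => h.nondeg y fun x => by rw [h.symm]; exact hy x⟩

lemma finrank_perp (h : Sym β) (B : Submodule F W) : finrank F (perp β B) + finrank F B = finrank F W := by
  have h1 := LinearMap.BilinForm.finrank_orthogonal h.nondegenerate B
  have h2 := Submodule.finrank_le B
  show finrank F (LinearMap.BilinForm.orthogonal β B) + _ = _
  omega

lemma perp_perp (h : Sym β) (B : Submodule F W) : perp β (perp β B) = B :=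
  LinearMap.BilinForm.orthogonal_orthogonal h.nondegenerate h.isRefl B

lemma nd_perp (h : Sym β) {B : Submodule F W} (hB : ND β B) : ND β (perp β B) := by
  intro x hx hx'
  have hxB : x ∈ B := by
    rw [← h.perp_perp B]
    exact fun a ha => by
      show β a x = 0
      rw [h.symm]; exact hx' a ha
  exact hB x hxB fun y hy => by rw [h.symm]; exact hx y hy

lemma inf_perp (h : Sym β) {B : Submodule F W} (hB : ND β B) : B ⊓ perp β B = ⊥ :=
  (Submodule.eq_bot_iff _).2 fun x hx => hB x hx.1 fun y hy => by rw [h.symm]; exact hx.2 y hy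

lemma sup_perp (h : Sym β) {B : Submodule F W} (hB : ND β B) : B ⊔ perp β B = ⊤ := by
  refine Submodule.eq_top_of_finrank_eq ?_
  have h1 := Submodule.finrank_sup_add_finrank_inf_eq B (perp β B)
  have h2 := h.finrank_perp B
  rw [h.inf_perp hB, finrank_bot] at h1
  omega

lemma nd_single (h : Sym β) {v : W} (hv : β v v ≠ 0) : ND β (F ∙ v) := by
  intro x hx hx'
  obtain ⟨c, rfl⟩ := Submodule.mem_span_singleton.1 hx
  have h1 := hx' v (Submodule.mem_span_singleton_self v)
  simp [hv] at h1
  simp [h1]

lemma nd_inf_perp (h : Sym β) {B : Submodule F W} (hB : ND β B) {v : W} (hvB : v ∈ B) (hv : β v v ≠ 0) :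
    ND β (B ⊓ perp β (F ∙ v)) := by
  intro x hx hx'
  have hxv : β x v = 0 := by rw [h.symm]; exact mem_perp_single.1 hx.2
  refine hB x hx.1 fun y hy => ?_
  have h1 := hx' (y - (β v y / β v v) • v) ⟨sub_mem hy (B.smul_mem _ hvB), mem_perp_single.2 (by
    simp [div_mul_cancel₀ _ hv])⟩
  simpa [hxv] using h1

lemma finrank_inf_perp (h : Sym β) (B : Submodule F W) (v : W) :
    finrank F B ≤ finrank F ↥(B ⊓ perp β (F ∙ v)) + 1 := by
  have h1 := Submodule.finrank_sup_add_finrank_inf_eq B (perp β (F ∙ v))
  have h2 := h.finrank_perp (F ∙ v)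
  have h3 := Submodule.finrank_le (B ⊔ perp β (F ∙ v))
  have h4 : finrank F (F ∙ v) ≤ 1 := (finrank_span_le_card ({v} : Set W)).trans (by simp)
  omega

lemma exists_aniso (h : Sym β) {B : Submodule F W} (hB : ND β B) (hne : B ≠ ⊥) : ∃ v ∈ B, β v v ≠ 0 := by
  by_contra! hall
  obtain ⟨x, hx, hx0⟩ := Submodule.exists_mem_ne_zero_of_ne_bot hne
  refine hx0 (hB x hx fun y hy => ?_)
  have h1 := hall (x + y) (B.add_mem hx hy)
  simp only [map_add, LinearMap.add_apply, hall x hx, hall y hy, h.symm y x] at h1
  have : (2 : F) * β x y = 0 := by linear_combination h1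
  exact (mul_eq_zero.1 this).resolve_left h.two_ne

/-- A binary form represents everything. -/
lemma exists_value (h : Sym β) {a b : F} (ha : a ≠ 0) (hb : b ≠ 0) (c : F) :
    ∃ s t : F, s ^ 2 * a + t ^ 2 * b = c := by
  classical
  have : Fintype F := Fintype.ofFinite F
  have hodd : Fintype.card F % 2 = 1 := by
    refine FiniteField.odd_card_of_char_ne_two fun h2 => h.two_ne ?_
    have := ringChar.charP F
    exact_mod_cast (CharP.cast_eq_zero_iff F (ringChar F) 2).2 (by rw [h2])
  obtain ⟨s, t, hst⟩ := FiniteField.exists_root_sum_quadratic (R := F)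
    (f := Polynomial.C a * Polynomial.X ^ 2) (g := Polynomial.C b * Polynomial.X ^ 2 - Polynomial.C c)
    (by rw [Polynomial.degree_C_mul_X_pow _ ha]; rfl)
    (by
      rw [Polynomial.degree_sub_eq_left_of_degree_lt] <;> rw [Polynomial.degree_C_mul_X_pow _ hb]
      · rfl
      · exact lt_of_le_of_lt Polynomial.degree_C_le (by decide)) hodd
  refine ⟨s, t, ?_⟩
  simp at hst
  linear_combination hst

/-- A non-degenerate plane represents everything. -/
lemma exists_value_in (h : Sym β) {B : Submodule F W} (hB : ND β B) (hdim : 2 ≤ finrank F B) (c : F) :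
    ∃ x ∈ B, β x x = c := by
  obtain ⟨v, hvB, hv⟩ := h.exists_aniso hB (fun h0 => by rw [h0, finrank_bot] at hdim; omega)
  have h1 := h.finrank_inf_perp B v
  obtain ⟨w, hw, hww⟩ := h.exists_aniso (h.nd_inf_perp hB hvB hv)
    (fun h0 => by rw [h0, finrank_bot] at h1; omega)
  obtain ⟨s, t, hst⟩ := h.exists_value hv hww c
  refine ⟨s • v + t • w, B.add_mem (B.smul_mem _ hvB) (B.smul_mem _ hw.1), ?_⟩
  have e := mem_perp_single.1 hw.2
  simp only [map_add, map_smul, LinearMap.add_apply, LinearMap.smul_apply, smul_eq_mul, e, h.symm w v]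
  linear_combination hst

/-- A non-degenerate space of dimension three has a singular vector. -/
lemma exists_iso_in (h : Sym β) {B : Submodule F W} (hB : ND β B) (hdim : 3 ≤ finrank F B) :
    ∃ n ∈ B, n ≠ 0 ∧ β n n = 0 := by
  obtain ⟨v, hvB, hv⟩ := h.exists_aniso hB (fun h0 => by rw [h0, finrank_bot] at hdim; omega)
  have h1 := h.finrank_inf_perp B v
  obtain ⟨x, hx, hxx⟩ := h.exists_value_in (h.nd_inf_perp hB hvB hv) (by omega) (- β v v)
  have e := mem_perp_single.1 hx.2
  refine ⟨v + x, B.add_mem hvB hx.1, fun h0 => hv ?_, ?_⟩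
  · have := congrArg (β v) h0
    simpa [e] using this
  · simp only [map_add, LinearMap.add_apply, e, h.symm x v, hxx]
    ring

/-- A linear map with all non-singular vectors as eigenvectors is a scalar. -/
lemma scalar_of_eigen (h : Sym β) {B : Submodule F W} (hB : ND β B) (hsz : 3 ≤ finrank F B ∨ 5 ≤ Nat.card F)
    (D : W →ₗ[F] W) (hD : ∀ v ∈ B, β v v ≠ 0 → ∃ c : F, D v = c • v) : ∃ c : F, ∀ v ∈ B, D v = c • v := by
  classical
  -- two vectors with a non-singular combination
  have link : ∀ v ∈ B, ∀ w ∈ B, ∀ c d s : F, β v v ≠ 0 → β w w ≠ 0 → s ≠ 0 → D v = c • v → D w = d • w →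
      β (v + s • w) (v + s • w) ≠ 0 → c = d := by
    intro v hv w hw c d s hvv hww hs hc hd hsw
    by_cases hind : ∃ t : F, w = t • v
    · obtain ⟨t, rfl⟩ := hind
      have ht : t ≠ 0 := fun h0 => hww (by simp [h0])
      rw [map_smul, hc, smul_smul, smul_smul] at hd
      have h1 := congrArg (β v) hd
      simp only [map_smul, smul_eq_mul] at h1
      exact mul_left_cancel₀ ht (mul_right_cancel₀ hvv (by linear_combination h1))
    obtain ⟨e, he⟩ := hD _ (B.add_mem hv (B.smul_mem s hw)) hsw
    rw [map_add, map_smul, hc, hd] at he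
    have h1 : (c - e) • v + (s * (d - e)) • w = 0 := by
      linear_combination (norm := module) he
    by_cases h2 : s * (d - e) = 0
    · rw [h2, zero_smul, add_zero, smul_eq_zero] at h1
      have h3 : c = e := sub_eq_zero.1 (h1.resolve_right fun h0 => hvv (by simp [h0]))
      have h4 : d = e := sub_eq_zero.1 ((mul_eq_zero.1 h2).resolve_left hs)
      rw [h3, h4]
    · refine absurd ⟨-((s * (d - e))⁻¹ * (c - e)), ?_⟩ hind
      have h3 : w = (s * (d - e))⁻¹ • ((s * (d - e)) • w) := by rw [inv_smul_smul₀ h2]
      rw [h3, eq_neg_of_add_eq_zero_right h1]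
      module
  have heq : ∀ v ∈ B, ∀ w ∈ B, ∀ c d : F, β v v ≠ 0 → β w w ≠ 0 → D v = c • v → D w = d • w → c = d := by
    intro v hv w hw c d hvv hww hc hd
    by_cases hex : ∃ s : F, s ≠ 0 ∧ β (v + s • w) (v + s • w) ≠ 0
    · obtain ⟨s, hs, hsw⟩ := hex
      exact link v hv w hw c d s hvv hww hs hc hd hsw
    push Not at hex
    have hexp : ∀ s : F, s ≠ 0 → β v v + 2 * s * β v w + s ^ 2 * β w w = 0 := fun s hs => by
      have h1 := hex s hs
      simp only [map_add, map_smul, LinearMap.add_apply, LinearMap.smul_apply, smul_eq_mul, h.symm w v] at h1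
      linear_combination h1
    have h1 := hexp 1 one_ne_zero
    have h2 := hexp (-1) (by simp)
    have hvw : β v w = 0 := by
      have : (2 : F) * (2 * β v w) = 0 := by linear_combination h1 - h2
      exact (mul_eq_zero.1 ((mul_eq_zero.1 this).resolve_left h.two_ne)).resolve_left h.two_ne
    have hsum : β w w = - β v v := by linear_combination h1 - 2 * hvw
    rcases hsz with hsz | hsz
    · have e1 := h.finrank_inf_perp B v
      have hw' : w ∈ B ⊓ perp β (F ∙ v) := ⟨hw, mem_perp_single.2 hvw⟩
      have e2 := h.finrank_inf_perp (B ⊓ perp β (F ∙ v)) w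
      obtain ⟨u, hu, huu⟩ := h.exists_aniso (h.nd_inf_perp (h.nd_inf_perp hB hv hvv) hw' hww)
        (fun h0 => by rw [h0, finrank_bot] at e2; omega)
      obtain ⟨e, he⟩ := hD u hu.1.1 huu
      have huv : β v u = 0 := mem_perp_single.1 hu.1.2
      have huw : β w u = 0 := mem_perp_single.1 hu.2
      have hQ : ∀ x y : W, β x y = 0 → β (x + (1 : F) • y) (x + (1 : F) • y) = β x x + β y y := fun x y hxy => by
        simp [h.symm y x, hxy]
      by_cases h3 : β v v + β u u = 0
      · have h4 : β w w + β u u ≠ 0 := by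
          rw [hsum]
          intro h5
          exact huu ((mul_eq_zero.1 (show 2 * β u u = 0 by linear_combination h3 + h5)).resolve_left h.two_ne)
        have h5 := link w hw u hu.1.1 d e 1 hww huu one_ne_zero hd he (by rwa [hQ _ _ huw])
        have hx : D (w + u) = d • (w + u) := by rw [map_add, hd, he, ← h5, smul_add]
        have h6 : β (w + u) v = 0 := by
          simp [h.symm w v, hvw, h.symm u v, huv]
        refine (link (w + u) (B.add_mem hw hu.1.1) v hv d c 1 ?_ hvv one_ne_zero hx hc ?_).symm
        · simpa [h.symm u w, huw] using h4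
        · rw [hQ _ _ h6]
          simp [h.symm u w, huw]
          intro h7
          exact huu (by linear_combination h7 - hsum)
      · have h5 := link v hv u hu.1.1 c e 1 hvv huu one_ne_zero hc he (by rwa [hQ _ _ huv])
        have hx : D (v + u) = c • (v + u) := by rw [map_add, hc, he, ← h5, smul_add]
        have h6 : β (v + u) w = 0 := by
          simp [hvw, h.symm u w, huw]
        refine link (v + u) (B.add_mem hv hu.1.1) w hw c d 1 ?_ hww one_ne_zero hx hd ?_
        · simpa [h.symm u v, huv] using h3
        · rw [hQ _ _ h6]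
          simp [h.symm u v, huv]
          intro h7
          exact huu (by linear_combination h7 - hsum)
    · have : Fintype F := Fintype.ofFinite F
      obtain ⟨s, hs⟩ : ∃ s : F, s ∉ ({0, 1, -1} : Finset F) := by
        refine Classical.not_forall_not.1 fun hall => ?_
        have h3 : Fintype.card F ≤ ({0, 1, -1} : Finset F).card := Finset.card_le_card (fun x _ => by
          have := hall x; push Not at this; exact this)
        have h4 : ({0, 1, -1} : Finset F).card ≤ 3 := Finset.card_le_three
        rw [Nat.card_eq_fintype_card] at hsz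
        omega
      simp only [Finset.mem_insert, Finset.mem_singleton, not_or] at hs
      have h3 := hexp s hs.1
      rw [hvw, hsum] at h3
      have h4 : β v v * ((1 - s) * (1 + s)) = 0 := by linear_combination h3
      rcases mul_eq_zero.1 h4 with h5 | h5
      · exact absurd h5 hvv
      rcases mul_eq_zero.1 h5 with h6 | h6
      · exact absurd (sub_eq_zero.1 h6).symm hs.2.1
      · exact absurd (eq_neg_of_add_eq_zero_right h6) hs.2.2
  rcases eq_or_ne B ⊥ with hne | hne
  · exact ⟨0, fun v hv => by rw [hne, Submodule.mem_bot] at hv; simp [hv]⟩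
  obtain ⟨v, hvB, hvv⟩ := h.exists_aniso hB hne
  obtain ⟨c, hc⟩ := hD v hvB hvv
  have hall : ∀ w ∈ B, β w w ≠ 0 → D w = c • w := fun w hw hww => by
    obtain ⟨d, hd⟩ := hD w hw hww
    rw [hd, heq v hvB w hw c d hvv hww hc hd]
  refine ⟨c, fun x hx => ?_⟩
  by_cases hxx : β x x = 0
  · by_cases hp : β (x + v) (x + v) = 0
    · have hm : β (x - v) (x - v) ≠ 0 := fun hm => hvv (by
        simp only [map_add, map_sub, LinearMap.add_apply, LinearMap.sub_apply, hxx, h.symm v x] at hp hm
        exact (mul_eq_zero.1 (show 2 * β v v = 0 by linear_combination hp + hm)).resolve_left h.two_ne)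
      have h1 := hall _ (B.sub_mem hx hvB) hm
      rw [map_sub, hc, smul_sub] at h1
      exact sub_left_inj.1 h1
    · have h1 := hall _ (B.add_mem hx hvB) hp
      rw [map_add, hc, smul_add] at h1
      exact add_right_cancel h1
  · exact hall x hx hxx

lemma refl_isIso (h : Sym β) (v : W) : IsIso β (refl β v) := by
  intro x y
  by_cases hv : β v v = 0
  · simp [refl_apply, hv]
  simp only [refl_apply, map_sub, map_smul, LinearMap.sub_apply, LinearMap.smul_apply, smul_eq_mul, h.symm x v]
  field_simp
  ring

lemma refl_self (h : Sym β) {v : W} (hv : β v v ≠ 0) : refl β v v = -v := by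
  rw [refl_apply, div_mul_cancel₀ _ hv, two_smul]
  abel

lemma refl_perp {v x : W} (hx : β v x = 0) : refl β v x = x := by
  rw [refl_apply, hx, mul_zero, zero_smul, sub_zero]

lemma refl_refl (h : Sym β) (v x : W) : refl β v (refl β v x) = x := by
  by_cases hv : β v v = 0
  · simp [refl_apply, hv]
  rw [refl_apply, refl_apply, map_sub, map_smul, smul_eq_mul, sub_sub, ← add_smul]
  convert sub_zero x using 2
  rw [show 2 / β v v * β v x + 2 / β v v * (β v x - 2 / β v v * β v x * β v v) = 0 by field_simp; ring, zero_smul]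

/-- A reflection carries a vector to another one of the same norm. -/
lemma refl_swap (h : Sym β) {v w : W} (hvw : β v v = β w w) (hd : β (v - w) (v - w) ≠ 0) :
    refl β (v - w) v = w := by
  have h1 : β (v - w) (v - w) = 2 * β (v - w) v := by
    simp only [map_sub, LinearMap.sub_apply, h.symm w v, hvw]
    ring
  rw [refl_apply, show (2 : F) / β (v - w) (v - w) * β (v - w) v = 1 by
    rw [div_mul_eq_mul_div, ← h1, div_self hd], one_smul, sub_sub_cancel]

lemma iso_injective (h : Sym β) {o : W →ₗ[F] W} (ho : IsIso β o) : Function.Injective o := by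
  refine (injective_iff_map_eq_zero o).2 fun x hx => h.nondeg x fun y => ?_
  rw [← ho, hx]
  simp

end Sym

lemma IsIso.comp {o o' : W →ₗ[F] W} (ho : IsIso β o) (ho' : IsIso β o') : IsIso β (o ∘ₗ o') := fun x y => by
  simp only [LinearMap.comp_apply, ho _ _, ho' _ _]

lemma isIso_id : IsIso β LinearMap.id := fun _ _ => rfl

end CfsgLib.SpO90
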