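import Cfsg.Agent.SpO90.Basic

/-!
A non-scalar element of the radical of the member `{(x, 0)}` yields all symplectic transvections.
-/

set_option autoImplicit false
set_option linter.unusedSectionVars false

namespace CfsgLib.SpO90

open Module

variable {F : Type*} [Field F] [Finite F] {W : Type*} [AddCommGroup W] [Module F W] [FiniteDimensional F W]

/-- `(x, y) ↦ (x + S y, y)` lies in `M`. -/
def InRad (M : Subgroup ((W × W) ≃ₗ[F] (W × W))) (S : W →ₗ[F] W) : Prop :=
  ∃ g ∈ M, ∀ p, g p = (p.1 + S p.2, p.2)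

/-- The radical of the member contains only scalars. -/
def OnlyScalar (M : Subgroup ((W × W) ≃ₗ[F] (W × W))) : Prop :=
  ∀ S, InRad M S → ∃ c : F, ∀ y, S y = c • y

variable (β : LinearMap.BilinForm F W)

/-- All transvections at `v` lie in `M`. -/
def Cen (M : Subgroup ((W × W) ≃ₗ[F] (W × W))) (v : W × W) : Prop :=
  ∀ c : F, ∃ g ∈ M, ∀ p, g p = p + (c * om β p v) • v

/-- `z ↦ β n z • n`. -/
noncomputable def R1 (n : W) : W →ₗ[F] W := (β n).smulRight n

/-- `z ↦ β x z • y + β y z • x`. -/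
noncomputable def R2 (x y : W) : W →ₗ[F] W := (β x).smulRight y + (β y).smulRight x

variable {β} {M : Subgroup ((W × W) ≃ₗ[F] (W × W))}

@[simp] lemma R1_apply (n z : W) : R1 β n z = β n z • n := rfl

@[simp] lemma R2_apply (x y z : W) : R2 β x y z = β x z • y + β y z • x := rfl

lemma InRad.congr {S S' : W →ₗ[F] W} (h : InRad M S) (he : ∀ y, S' y = S y) : InRad M S' := by
  rwa [LinearMap.ext he]

lemma InRad.add {S S' : W →ₗ[F] W} (h : InRad M S) (h' : InRad M S') : InRad M (S + S') := by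
  obtain ⟨g, hg, hp⟩ := h
  obtain ⟨g', hg', hp'⟩ := h'
  refine ⟨g * g', M.mul_mem hg hg', fun p => ?_⟩
  show g (g' p) = _
  simp only [hp', hp, LinearMap.add_apply, Prod.mk.injEq, and_true]
  abel

lemma InRad.neg {S : W →ₗ[F] W} (h : InRad M S) : InRad M (-S) := by
  obtain ⟨g, hg, hp⟩ := h
  refine ⟨g⁻¹, M.inv_mem hg, fun p => g.injective ?_⟩
  rw [app_inv, hp]
  simp

lemma InRad.sub {S S' : W →ₗ[F] W} (h : InRad M S) (h' : InRad M S') : InRad M (S - S') := by
  rw [sub_eq_add_neg]; exact h.add h'.neg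

lemma InRad.zero : InRad M (0 : W →ₗ[F] W) := ⟨1, M.one_mem, fun p => by simp⟩

lemma InRad.selfAdj (hM : Hyp β M) {S : W →ₗ[F] W} (h : InRad M S) (x y : W) : β (S x) y = β x (S y) := by
  obtain ⟨g, hg, hp⟩ := h
  have h1 := hM.iso g hg (0, x) (0, y)
  simp only [om, hp, zero_add, map_zero, LinearMap.zero_apply, sub_self] at h1
  exact sub_eq_zero.1 h1

lemma InRad.conj (hM : Hyp β M) {S : W →ₗ[F] W} (h : InRad M S) {o o' : W →ₗ[F] W} (ho : IsIso β o)
    (hoo : ∀ x, o (o' x) = x) : InRad M (o ∘ₗ S ∘ₗ o') := by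
  obtain ⟨g, hg, hp⟩ := h
  obtain ⟨r, hr, hrp⟩ := hM.kr_mem o 1 0 0 1 ho (by ring)
  refine ⟨r * g * r⁻¹, M.mul_mem (M.mul_mem hr hg) (M.inv_mem hr), fun p => ?_⟩
  have hq : r⁻¹ p = (o' p.1, o' p.2) := r.injective (by rw [app_inv, hrp]; simp [hoo])
  show r (g (r⁻¹ p)) = _
  rw [hq, hp, hrp]
  simp [hoo]

lemma InRad.smul (hM : Hyp β M) {S : W →ₗ[F] W} (h : InRad M S) (c : F) : InRad M (c • S) := by
  have sq : ∀ a : F, InRad M ((a * a) • S) := by
    intro a
    rcases eq_or_ne a 0 with rfl | ha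
    · exact InRad.zero.congr fun y => by simp
    obtain ⟨g, hg, hp⟩ := h
    obtain ⟨r, hr, hrp⟩ := hM.kr_mem LinearMap.id a 0 0 a⁻¹ isIso_id (by simp [ha])
    refine ⟨r * g * r⁻¹, M.mul_mem (M.mul_mem hr hg) (M.inv_mem hr), fun p => ?_⟩
    have hq : r⁻¹ p = (a⁻¹ • p.1, a • p.2) := r.injective (by rw [app_inv, hrp]; simp [smul_smul, ha])
    show r (g (r⁻¹ p)) = _
    rw [hq, hp, hrp]
    simp [smul_smul, ha, smul_add]
  have h2 := hM.two_ne
  refine ((sq ((c + 1) / 2)).sub (sq ((c - 1) / 2))).congr fun y => ?_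
  simp only [LinearMap.sub_apply, LinearMap.smul_apply, ← sub_smul]
  congr 1
  field_simp
  ring

lemma InRad.of_smul (hM : Hyp β M) {S : W →ₗ[F] W} {c : F} (h : InRad M (c • S)) (hc : c ≠ 0) : InRad M S := by
  simpa [smul_smul, inv_mul_cancel₀ hc] using h.smul hM c⁻¹

lemma R2_comm (x y : W) : R2 β x y = R2 β y x := LinearMap.ext fun z => by simp [add_comm]

/-- The difference with a reflected copy. -/
lemma InRad.refl_rad (hM : Hyp β M) {S : W →ₗ[F] W} (h : InRad M S) {v : W} (hv : β v v ≠ 0) :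
    InRad M (R2 β v (S v - (β (S v) v / β v v) • v)) := by
  have h1 := (h.conj hM (hM.sym.refl_isIso v) (fun x => hM.sym.refl_refl v x)).sub h
  refine (h1.smul hM (-(β v v / 2))).congr fun z => ?_
  have hsa := h.selfAdj hM v z
  simp only [R2_apply, LinearMap.smul_apply, LinearMap.sub_apply, LinearMap.comp_apply, refl_apply, map_sub,
    map_smul, smul_eq_mul, ← hsa, hM.symm v (S v)]
  have h2 := hM.two_ne
  match_scalars <;> field_simp <;> ring

lemma exists_three (hq : 5 ≤ Nat.card F) : ∃ s : F, s ≠ 0 ∧ s ≠ 1 ∧ s ≠ -1 := by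
  classical
  have : Fintype F := Fintype.ofFinite F
  by_contra hall
  have h3 : Fintype.card F ≤ ({0, 1, -1} : Finset F).card := Finset.card_le_card (fun x _ => by
    by_contra hx
    simp only [Finset.mem_insert, Finset.mem_singleton, not_or] at hx
    exact hall ⟨x, hx⟩)
  have h4 : ({0, 1, -1} : Finset F).card ≤ 3 := Finset.card_le_three
  rw [Nat.card_eq_fintype_card] at hq
  omega

lemma exists_sq_add_ne (h2 : (2 : F) ≠ 0) (hq : 5 ≤ Nat.card F) {a b : F} (ha : a ≠ 0) :
    ∃ s : F, s ≠ 0 ∧ a + s ^ 2 * b ≠ 0 := by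
  by_contra! hall
  obtain ⟨s, hs0, hs1, hs2⟩ := exists_three hq
  have e1 := hall 1 one_ne_zero
  have e2 := hall s hs0
  have : a * ((1 - s) * (1 + s)) = 0 := by linear_combination e2 - s ^ 2 * e1
  rcases mul_eq_zero.1 this with h | h
  · exact ha h
  rcases mul_eq_zero.1 h with h | h
  · exact hs1 (sub_eq_zero.1 h).symm
  · exact hs2 (eq_neg_of_add_eq_zero_right h)

/-- From `R2 u n` to `R1 n`. -/
lemma InRad.of_pair (hM : Hyp β M) {u n : W} (h : InRad M (R2 β u n)) (hu : β u u ≠ 0) (hn : β n n = 0)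
    (hun : β u n = 0) : InRad M (R1 β n) := by
  set u' := u + (2⁻¹ : F) • n with hu'
  have h2 := hM.two_ne
  have hnu : β n u = 0 := by rw [hM.symm]; exact hun
  have hQ : β u' u' = β u u := by simp [hu', hn, hun, hnu]
  set o := refl β u' ∘ₗ refl β u
  set o' := refl β u ∘ₗ refl β u'
  have ho : IsIso β o := (hM.sym.refl_isIso u').comp (hM.sym.refl_isIso u)
  have hoo : ∀ x, o (o' x) = x := fun x => by simp [o, o', hM.sym.refl_refl]
  have hou : o u = u + n := by
    show refl β u' (refl β u u) = _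
    rw [hM.sym.refl_self hu, refl_apply, map_neg, show β u' u = β u u by simp [hu', hnu], hQ, hu']
    match_scalars <;> field_simp <;> ring
  have hon : o n = n := by
    show refl β u' (refl β u n) = _
    rw [Sym.refl_perp hun, Sym.refl_perp (by simp [hu', hn, hun])]
  have h1 := ((h.conj hM ho hoo).sub h).smul hM (2⁻¹ : F)
  refine h1.congr fun z => ?_
  have ea : β u (o' z) = β (u + n) z := by rw [← ho, hoo, hou]
  have eb : β n (o' z) = β n z := by rw [← ho, hoo, hon]
  simp only [LinearMap.smul_apply, LinearMap.sub_apply, LinearMap.comp_apply, R1_apply, R2_apply, map_add,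
    map_smul, ea, eb, hou, hon, LinearMap.add_apply]
  match_scalars <;> field_simp <;> ring

/-- Moving the first argument of `R2` out of the plane. -/
lemma InRad.move (hM : Hyp β M) {x y w : W} (h : InRad M (R2 β x y)) (hxy : β x y = 0) (hx : β x x ≠ 0)
    (hwx : β w x = 0) (hwy : β w y = 0) {s : F} (hs : s ≠ 0) (hQ : β x x + s ^ 2 * β w w ≠ 0) :
    InRad M (R2 β w y) := by
  have e1 : β y x = 0 := by rw [hM.symm]; exact hxy
  have e2 : β x w = 0 := by rw [hM.symm]; exact hwx
  have e3 : β y w = 0 := by rw [hM.symm]; exact hwy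
  have hQ' : β (x + s • w) (x + s • w) = β x x + s ^ 2 * β w w := by
    simp [e2, hwx]; ring
  have h1 := h.refl_rad hM (v := x + s • w) (by rwa [hQ'])
  have e4 : R2 β x y (x + s • w) = β x x • y := by simp [e1, e2, e3]
  have e5 : β (β x x • y) (x + s • w) = 0 := by simp [e1, e3]
  rw [e4, e5, zero_div, zero_smul, sub_zero] at h1
  refine ((((h1.smul hM (β x x)⁻¹).sub h)).smul hM s⁻¹).congr fun z => ?_
  simp only [LinearMap.smul_apply, LinearMap.sub_apply, R2_apply, map_add, map_smul, LinearMap.add_apply,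
    smul_eq_mul]
  match_scalars <;> field_simp <;> ring

/-- A non-scalar in the radical yields a singular rank one element. -/
lemma exists_rank_one (hM : Hyp β M) {S : W →ₗ[F] W} (h : InRad M S) (hS : ¬ ∃ c : F, ∀ y, S y = c • y) :
    ∃ n, n ≠ 0 ∧ β n n = 0 ∧ InRad M (R1 β n) := by
  have hs := hM.sym
  have htop : ND β ⊤ := fun x _ hx => hM.nondeg x fun y => hx y Submodule.mem_top
  obtain ⟨v, hv, hvS⟩ : ∃ v, β v v ≠ 0 ∧ ∀ c : F, S v ≠ c • v := by
    by_contra! hall
    obtain ⟨c, hc⟩ := hs.scalar_of_eigen htop (Or.inl (by rw [finrank_top]; exact hM.low)) S fun v _ hv => hall v hv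
    exact hS ⟨c, fun y => hc y Submodule.mem_top⟩
  set u := S v - (β (S v) v / β v v) • v with hu
  have hu0 : u ≠ 0 := fun h0 => hvS _ (sub_eq_zero.1 h0)
  have hvu : β v u = 0 := by
    rw [hu, map_sub, map_smul, smul_eq_mul, hM.symm v (S v), div_mul_cancel₀ _ hv, sub_self]
  have hvu' : β u v = 0 := by rw [hM.symm]; exact hvu
  have hD : InRad M (R2 β v u) := h.refl_rad hM hv
  clear_value u
  clear hu
  by_cases huu : β u u = 0
  · exact ⟨u, hu0, huu, hD.of_pair hM hv huu hvu⟩
  set C := (⊤ ⊓ perp β (F ∙ v)) ⊓ perp β (F ∙ u)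
  have hu1 : u ∈ ⊤ ⊓ perp β (F ∙ v) := ⟨Submodule.mem_top, mem_perp_single.2 hvu⟩
  have hC : ND β C := hs.nd_inf_perp (hs.nd_inf_perp htop Submodule.mem_top hv) hu1 huu
  have hCdim : finrank F W ≤ finrank F C + 2 := by
    have e1 := hs.finrank_inf_perp (⊤ : Submodule F W) v
    have e2 := hs.finrank_inf_perp (⊤ ⊓ perp β (F ∙ v)) u
    rw [finrank_top] at e1
    show finrank F W ≤ finrank F ↥((⊤ ⊓ perp β (F ∙ v)) ⊓ perp β (F ∙ u)) + 2
    omega
  by_cases h3 : 3 ≤ finrank F C
  · obtain ⟨n, hn, hn0, hnn⟩ := hs.exists_iso_in hC h3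
    have e1 : β n v = 0 := by rw [hM.symm]; exact mem_perp_single.1 hn.1.2
    have e2 : β n u = 0 := by rw [hM.symm]; exact mem_perp_single.1 hn.2
    have h1 := hD.move hM hvu hv e1 e2 one_ne_zero (by simpa [hnn] using hv)
    rw [R2_comm] at h1
    exact ⟨n, hn0, hnn, h1.of_pair hM huu hnn (by rw [hM.symm]; exact e2)⟩
  have hq : 5 ≤ Nat.card F := hM.three (by
    have h1 := hM.low
    obtain ⟨j, hj⟩ := hM.odd
    omega)
  have h2 := hM.two_ne
  obtain ⟨w, hw, hww⟩ := hs.exists_aniso hC fun h0 => by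
    rw [h0, finrank_bot] at hCdim
    have := hM.low
    omega
  have e1 : β w v = 0 := by rw [hM.symm]; exact mem_perp_single.1 hw.1.2
  have e2 : β w u = 0 := by rw [hM.symm]; exact mem_perp_single.1 hw.2
  have e1' : β v w = 0 := by rw [hM.symm]; exact e1
  have e2' : β u w = 0 := by rw [hM.symm]; exact e2
  have hwu : InRad M (R2 β w u) := by
    obtain ⟨s, hs, hQ⟩ := exists_sq_add_ne h2 hq (b := β w w) hv
    exact hD.move hM hvu hv e1 e2 hs hQ
  have hwv : InRad M (R2 β w v) := by
    obtain ⟨s, hs, hQ⟩ := exists_sq_add_ne h2 hq (b := β w w) huu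
    exact (hD.congr fun z => by rw [R2_comm]).move hM hvu' huu e2 e1 hs hQ
  -- the diagonal differences
  have diag : ∀ x y z : W, β x y = 0 → β z x = 0 → β z y = 0 → β x x ≠ 0 → β y y ≠ 0 → β z z ≠ 0 →
      InRad M (R2 β x y) → InRad M (R2 β z x) → InRad M (R2 β z y) →
      (∃ n, n ≠ 0 ∧ β n n = 0 ∧ InRad M (R1 β n)) ∨
        InRad M (β y y • R1 β x - β x x • R1 β y) := by
    intro x y z hxy hzx hzy hx hy hz hDxy hDzx hDzy
    have hyx : β y x = 0 := by rw [hM.symm]; exact hxy
    obtain ⟨b, hb, hbQ⟩ : ∃ b : F, b ≠ 0 ∧ β x x + b ^ 2 * (- β y y) ≠ 0 := exists_sq_add_ne h2 hq hx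
    by_cases hp : β x x + b ^ 2 * β y y = 0
    · left
      refine ⟨x + b • y, fun h0 => hx ?_, by simp [hxy, hyx]; linear_combination hp,
        InRad.of_pair hM (u := z) ((hDzx.add (hDzy.smul hM b)).congr fun t => ?_) hz
          (by simp [hxy, hyx]; linear_combination hp) (by simp [hzx, hzy])⟩
      · have := congrArg (β x) h0
        simpa [hxy] using this
      · simp only [LinearMap.add_apply, LinearMap.smul_apply, R2_apply, map_add, map_smul, smul_eq_mul,
          LinearMap.add_apply]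
        match_scalars <;> ring
    right
    have hQ : β (x + b • y) (x + b • y) = β x x + b ^ 2 * β y y := by simp [hxy, hyx]; ring
    have h1 := hDxy.refl_rad hM (v := x + b • y) (by rwa [hQ])
    have e : R2 β x y (x + b • y) - (β (R2 β x y (x + b • y)) (x + b • y) / β (x + b • y) (x + b • y)) • (x + b • y)
        = ((b ^ 2 * β y y - β x x) / (β x x + b ^ 2 * β y y)) • ((b * β y y) • x - β x x • y) := by
      rw [hQ]
      simp only [R2_apply, map_add, map_smul, LinearMap.add_apply, LinearMap.smul_apply, smul_eq_mul, hxy, hyx]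
      match_scalars <;> field_simp <;> ring
    rw [e] at h1
    set μ := (b ^ 2 * β y y - β x x) / (β x x + b ^ 2 * β y y)
    have hμ : μ ≠ 0 := div_ne_zero (fun h0 => hbQ (by linear_combination -h0)) hp
    refine (((h1.smul hM μ⁻¹).sub (hDxy.smul hM (b ^ 2 * β y y - β x x))).smul hM (2 * b)⁻¹).congr fun t => ?_
    simp only [LinearMap.smul_apply, LinearMap.sub_apply, R2_apply, R1_apply, map_sub, map_smul, map_add,
      LinearMap.add_apply, smul_eq_mul]
    match_scalars <;> field_simp <;> ring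
  rcases diag u v w hvu' e2 e1 huu hv hww (hD.congr fun z => by rw [R2_comm]) hwu hwv with hh | hEuv
  · exact hh
  rcases diag v w u e1' hvu' e2' hv hww huu (hwv.congr fun z => by rw [R2_comm])
      (hD.congr fun z => by rw [R2_comm]) (hwu.congr fun z => by rw [R2_comm]) with hh | hEvw
  · exact hh
  obtain ⟨a, b, hab⟩ := hs.exists_value huu hv (- β w w)
  refine ⟨a • u + b • v + w, fun h0 => hww ?_, ?_,
    ((((hEuv.smul hM (a ^ 2 / β v v)).sub (hEvw.smul hM (1 / β v v))).add (hD.smul hM (a * b))).add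
      ((hwu.smul hM a).add (hwv.smul hM b))).congr fun t => ?_⟩
  · have := congrArg (β w) h0
    simpa [e1, e2] using this
  · simp [hvu, hvu', e1, e2, e1', e2']
    linear_combination hab
  · simp only [LinearMap.add_apply, LinearMap.sub_apply, LinearMap.smul_apply, R1_apply, R2_apply, map_add,
      map_smul, smul_eq_mul]
    match_scalars <;> field_simp <;>
      first | ring1 | linear_combination (β v t) * hab | linear_combination -(β v t) * hab

lemma Cen.of_inRad (hM : Hyp β M) {n : W} (h : InRad M (R1 β n)) : Cen β M (n, 0) := by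
  intro c
  obtain ⟨g, hg, hp⟩ := h.smul hM (-c)
  refine ⟨g, hg, fun p => ?_⟩
  rw [hp]
  ext <;> simp [om, hM.symm n p.2, smul_smul]

lemma inRad_of_cen (hM : Hyp β M) {n : W} (h : Cen β M (n, 0)) : InRad M (R1 β n) := by
  obtain ⟨g, hg, hp⟩ := h (-1)
  refine ⟨g, hg, fun p => ?_⟩
  rw [hp]
  ext <;> simp [om, hM.symm n p.2]

lemma Cen.image (hM : Hyp β M) {v : W × W} (h : Cen β M v) {k : (W × W) ≃ₗ[F] (W × W)} (hk : k ∈ M) :
    Cen β M (k v) := by
  intro c
  obtain ⟨g, hg, hp⟩ := h c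
  refine ⟨k * g * k⁻¹, M.mul_mem (M.mul_mem hk hg) (M.inv_mem hk), fun p => ?_⟩
  show k (g (k⁻¹ p)) = _
  rw [hp, map_add, map_smul, app_inv, ← hM.iso k hk (k⁻¹ p) v, app_inv]

lemma om_self (hM : Hyp β M) (p : W × W) : om β p p = 0 := by simp [om, hM.symm p.1 p.2]

lemma Cen.add (hM : Hyp β M) {v w : W × W} (hv : Cen β M v) (hw : Cen β M w) (h : om β v w ≠ 0) :
    Cen β M (v + w) := by
  obtain ⟨g, hg, hp⟩ := hw (om β v w)⁻¹
  have h1 := hv.image hM hg
  rwa [hp, inv_mul_cancel₀ h, one_smul] at h1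

/-- A non-scalar in the radical yields all transvections. -/
theorem cen_all_of_not_onlyScalar (hM : Hyp β M) (h : ¬ OnlyScalar M) : ∀ v, Cen β M v := by
  simp only [OnlyScalar, not_forall] at h
  obtain ⟨S, hS, hS'⟩ := h
  obtain ⟨n₀, hn₀, hnn, hK₀⟩ := exists_rank_one hM hS hS'
  have hs := hM.sym
  have h2 := hM.two_ne
  have conjK : ∀ (x n : W), InRad M (R1 β n) → InRad M (R1 β (refl β x n)) := fun x n hK => by
    refine (hK.conj hM (hs.refl_isIso x) (hs.refl_refl x)).congr fun z => ?_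
    have : β (refl β x n) z = β n (refl β x z) := by
      rw [← hs.refl_isIso x n (refl β x z), hs.refl_refl]
    simp [this]
  have haniso : ∀ w : W, β w w ≠ 0 → InRad M (R1 β w) := by
    intro w hw
    obtain ⟨n, hn, hnw, hK⟩ : ∃ n, β n n = 0 ∧ β n w ≠ 0 ∧ InRad M (R1 β n) := by
      by_cases h0 : β n₀ w = 0
      · obtain ⟨y, hy⟩ : ∃ y, β n₀ y ≠ 0 := by
          by_contra! hall; exact hn₀ (hM.nondeg _ hall)
        set y' := (β n₀ y)⁻¹ • y
        have hy' : β n₀ y' = 1 := by simp [y', hy]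
        set x := y' + ((1 - β y' w) / β w w) • w
        have hx1 : β n₀ x = 1 := by simp [x, hy', h0]
        have hx2 : β x w = 1 := by simp [x, hw]
        obtain ⟨s, hs'⟩ : ∃ s : F, β (x + s • n₀) (x + s • n₀) ≠ 0 := by
          by_contra! hall
          have e0 := hall 0
          have e1 := hall 1
          simp [hnn, hx1, hM.symm x n₀] at e0 e1
          exact h2 (by linear_combination e1 - e0)
        set z := x + s • n₀
        have hz1 : β z n₀ = 1 := by simp [z, hM.symm x n₀, hx1, hnn]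
        have hz2 : β z w = 1 := by simp [z, hx2, h0]
        refine ⟨refl β z n₀, by rw [hs.refl_isIso z]; exact hnn, ?_, conjK z _ hK₀⟩
        rw [refl_apply, map_sub, map_smul, LinearMap.sub_apply, LinearMap.smul_apply, hz1, hz2, h0]
        simp [h2, hs']
      · exact ⟨n₀, hnn, h0, hK₀⟩
    set t := β w w / (2 * β n w)
    have ht : t ≠ 0 := div_ne_zero hw (mul_ne_zero h2 hnw)
    set a := t • n with ha
    have haa : β a a = 0 := by simp [ha, hn]
    have haw : 2 * β a w = β w w := by simp [ha, t]; field_simp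
    set n' := w - a with hn'
    have hn'n' : β n' n' = 0 := by
      simp only [hn', map_sub, LinearMap.sub_apply, haa, hM.symm w a]
      linear_combination -haw
    have han : β a n' = β a w := by simp [hn', haa]
    have haw0 : β a w ≠ 0 := fun h0 => hw (by rw [← haw, h0, mul_zero])
    have hKa : InRad M (R1 β a) := (hK.smul hM (t * t)).congr fun z => by
      simp [ha, smul_smul]; ring_nf
    have hKn' : InRad M (R1 β n') := by
      rw [← hs.refl_swap (v := a) (w := n') (by rw [haa, hn'n']) ?_]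
      · exact conjK _ _ hKa
      · simp only [map_sub, LinearMap.sub_apply, haa, hn'n', hM.symm n' a, han]
        intro h0
        exact haw0 ((mul_eq_zero.1 (show 2 * β a w = 0 by linear_combination -h0)).resolve_left h2)
    obtain ⟨r, hr, hrp⟩ := hM.kr_mem LinearMap.id 0 (-1) 1 0 isIso_id (by ring)
    have hC1 : Cen β M (a, n') := by
      have h1 := (Cen.of_inRad hM hKn').image hM hr
      have h3 := (Cen.of_inRad hM hKa).add hM h1 (by simp [hrp, om, han, haw0])
      simpa [hrp] using h3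
    obtain ⟨t₁, ht₁, ht₁p⟩ := hM.exists_shear 1
    have hC2 : Cen β M (a + n', n') := by simpa [ht₁p] using hC1.image hM ht₁
    have hC3 : Cen β M (0, -n') := by
      obtain ⟨r', hr', hrp'⟩ := hM.kr_mem LinearMap.id 0 1 (-1) 0 isIso_id (by ring)
      simpa [hrp'] using (Cen.of_inRad hM hKn').image hM hr'
    have hC4 := hC2.add hM hC3 (by simp [om, hn'n', han, haw0])
    apply inRad_of_cen hM
    simpa [hn'] using hC4
  have hall : ∀ w : W, InRad M (R1 β w) := by
    intro w
    by_cases hw : β w w = 0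
    · obtain ⟨x, hx, hxx⟩ : ∃ x, β w x = 0 ∧ β x x ≠ 0 := by
        by_contra! hall
        have e1 := hs.finrank_perp (F ∙ w)
        have e2 : finrank F (F ∙ w) ≤ 1 := (finrank_span_le_card ({w} : Set W)).trans (by simp)
        have e3 : perp β (F ∙ w) ≤ perp β (perp β (F ∙ w)) := fun a ha b hb => by
          show β b a = 0
          have h1 := hall (b + a) (by simp [mem_perp_single.1 hb, mem_perp_single.1 ha])
          simp only [map_add, LinearMap.add_apply, hall b (mem_perp_single.1 hb),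
            hall a (mem_perp_single.1 ha), hM.symm a b] at h1
          exact (mul_eq_zero.1 (show 2 * β b a = 0 by linear_combination h1)).resolve_left h2
        have e4 := Submodule.finrank_mono e3
        rw [hs.perp_perp] at e4
        have := hM.low
        omega
      have hxw : β x w = 0 := by rw [hM.symm]; exact hx
      refine ((((haniso (w + x) ?_).add (haniso (w - x) ?_)).sub ((haniso x hxx).smul hM 2)).smul hM
        (2⁻¹ : F)).congr fun z => ?_
      · simpa [hw, hx, hxw] using hxx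
      · simpa [hw, hx, hxw] using hxx
      · simp only [LinearMap.smul_apply, LinearMap.sub_apply, LinearMap.add_apply, R1_apply, map_add, map_sub]
        match_scalars <;> field_simp <;> ring
    · exact haniso w hw
  intro p
  obtain ⟨x, y⟩ := p
  obtain ⟨r, hr, hrp⟩ := hM.kr_mem LinearMap.id 0 (-1) 1 0 isIso_id (by ring)
  rcases eq_or_ne x 0 with rfl | hx
  · simpa [hrp] using (Cen.of_inRad hM (hall y)).image hM hr
  obtain ⟨v, hv⟩ : ∃ v, β x v ≠ 0 := by
    by_contra! hall'; exact hx (hM.nondeg _ hall')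
  set v' := (β x v)⁻¹ • v
  have hv' : β x v' = 1 := by simp [v', hv]
  have hR2 : InRad M (R2 β y v') := ((((hall (y + v')).sub (hall y)).sub (hall v'))).congr fun z => by
    simp [smul_add, add_smul]; abel
  obtain ⟨g, hg, hgp⟩ := ((hR2.sub ((hall v').smul hM (β y x))).neg)
  have h1 := (Cen.of_inRad hM (hall x)).image hM (M.mul_mem (M.mul_mem hr hg) (M.inv_mem hr))
  have hq : r⁻¹ (x, 0) = (0, -x) := r.injective (by rw [app_inv, hrp]; simp)
  have h3 : (r * g * r⁻¹) (x, 0) = (x, y) := by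
    show r (g (r⁻¹ (x, 0))) = _
    rw [hq, hgp, hrp]
    simp [hM.symm v' x, hv']
  rwa [h3] at h1

end CfsgLib.SpO90
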