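import Cfsg.Agent.SpO90.Rank

/-!
The stabiliser of the member, semiregularity of the shears, and the images meeting the member in a
subspace with degenerate or small first projection.
-/

set_option autoImplicit false
set_option linter.unusedSectionVars false

namespace CfsgLib.SpO90

open Module

variable {F : Type*} [Field F] [Finite F] {W : Type*} [AddCommGroup W] [Module F W] [FiniteDimensional F W]
variable {β : LinearMap.BilinForm F W} {M : Subgroup ((W × W) ≃ₗ[F] (W × W))}
variable {g k : (W × W) ≃ₗ[F] (W × W)}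

/-- The shape of an element fixing the member. -/
def Borel (β : LinearMap.BilinForm F W) (g : (W × W) ≃ₗ[F] (W × W)) (a b : F) (o : W →ₗ[F] W) : Prop :=
  a ≠ 0 ∧ IsIso β o ∧ ∀ p, g p = (a • o p.1 + b • o p.2, a⁻¹ • o p.2)

lemma Borel.tens {a b : F} {o : W →ₗ[F] W} (h : Borel β g a b o) : Tens β g :=
  ⟨a, b, 0, a⁻¹, o, h.2.1, by rw [mul_inv_cancel₀ h.1, mul_zero, sub_zero], fun p => by simp [h.2.2]⟩

/-- A multiplier of a similitude in odd dimension is a square. -/
lemma isSquare_multiplier (hM : Hyp β M) {δ : W →ₗ[F] W} {c : F} (hc : c ≠ 0)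
    (h : ∀ x y, β (δ x) (δ y) = c * β x y) : IsSquare c := by
  classical
  set bs := Module.finBasis F W
  set G := LinearMap.BilinForm.toMatrix bs β
  have hG : G.det ≠ 0 :=
    (LinearMap.BilinForm.nondegenerate_iff_det_ne_zero bs).1 hM.sym.nondegenerate
  have e : (LinearMap.toMatrix bs bs δ).transpose * G * LinearMap.toMatrix bs bs δ = c • G := by
    rw [← LinearMap.BilinForm.toMatrix_comp bs bs β δ δ]
    ext i j
    simp [G, LinearMap.BilinForm.toMatrix_apply, h]
  have e2 := congrArg Matrix.det e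
  rw [Matrix.det_mul, Matrix.det_mul, Matrix.det_transpose, Matrix.det_smul, Fintype.card_fin] at e2
  obtain ⟨j, hj⟩ := hM.odd
  rw [show c ^ finrank F W = c ^ (2 * j + 1) by rw [hj]] at e2
  set d := (LinearMap.toMatrix bs bs δ).det
  have e3 : d * d = c * (c ^ j * c ^ j) := by
    refine mul_right_cancel₀ hG ?_
    rw [show c * (c ^ j * c ^ j) = c ^ (2 * j + 1) by ring, ← e2]
    ring
  refine ⟨d / c ^ j, ?_⟩
  field_simp
  linear_combination -e3

/-- An element of `M` fixing the member is triangular. -/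
theorem exists_borel (hM : Hyp β M) (hsc : OnlyScalar M) (hg : g ∈ M) (h : img g = base) :
    ∃ a b o, Borel β g a b o := by
  have h0 := img_eq_base_iff.1 h
  let α : W →ₗ[F] W := LinearMap.fst F W W ∘ₗ g.toLinearMap ∘ₗ LinearMap.inl F W W
  let δ : W →ₗ[F] W := LinearMap.snd F W W ∘ₗ g.toLinearMap ∘ₗ LinearMap.inr F W W
  have hgx : ∀ x : W, g (x, 0) = (α x, 0) := fun x => Prod.ext rfl (h0 x)
  have hgy : ∀ y : W, (g (0, y)).2 = δ y := fun y => rfl
  have hsnd : ∀ p : W × W, (g p).2 = δ p.2 := fun p => by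
    conv_lhs => rw [show p = (p.1, 0) + (0, p.2) by simp, map_add, hgx]
    simp [hgy]
  have hαinj : Function.Injective α := fun x x' hx => by
    have := g.injective (show g (x, 0) = g (x', 0) by rw [hgx, hgx, hx])
    exact (Prod.ext_iff.1 this).1
  obtain ⟨t, ht, htp⟩ := hM.exists_shear 1
  have hδsurj : Function.Surjective δ := fun y => ⟨(g⁻¹ (0, y)).2, by rw [← hsnd, app_inv]⟩
  let e := LinearEquiv.ofBijective δ ⟨LinearMap.injective_iff_surjective.2 hδsurj, hδsurj⟩
  obtain ⟨κ, hκ⟩ := hsc (α ∘ₗ e.symm.toLinearMap) ⟨g * t * g⁻¹, M.mul_mem (M.mul_mem hg ht) (M.inv_mem hg),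
    fun p => by
      show g (t (g⁻¹ p)) = _
      have he : e.symm p.2 = (g⁻¹ p).2 := by
        rw [LinearEquiv.symm_apply_eq]
        show p.2 = δ _
        rw [← hsnd, app_inv]
      rw [htp, one_smul, show ((g⁻¹ p).1 + (g⁻¹ p).2, (g⁻¹ p).2) = g⁻¹ p + ((g⁻¹ p).2, 0) by ext <;> simp, map_add,
        app_inv, hgx]
      ext <;> simp [he]⟩
  have hακ : ∀ y, α y = κ • δ y := fun y => by
    have := hκ (δ y)
    simp only [LinearMap.comp_apply, LinearEquiv.coe_coe] at this
    rwa [show e.symm (δ y) = y from e.symm_apply_apply y] at this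
  obtain ⟨w, hw⟩ : ∃ w : W, w ≠ 0 := by
    have h1 := hM.low
    exact ⟨_, ((Module.finBasis F W).ne_zero ⟨0, by omega⟩)⟩
  have hκ0 : κ ≠ 0 := by
    rintro rfl
    exact hw (hαinj (by rw [hακ, hακ, zero_smul, zero_smul]))
  have hsim : ∀ x y, β (δ x) (δ y) = κ⁻¹ * β x y := fun x y => by
    have := hM.iso g hg (x, 0) (0, y)
    simp only [om, hgx, hgy, hακ, map_smul, LinearMap.smul_apply, smul_eq_mul, map_zero,
      LinearMap.zero_apply, sub_zero] at this
    rw [← this]
    field_simp
  obtain ⟨s, hs⟩ := isSquare_multiplier hM (inv_ne_zero hκ0) hsim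
  have hs0 : s ≠ 0 := fun h => inv_ne_zero hκ0 (by rw [hs, h, mul_zero])
  set a := s⁻¹
  have ha : a ≠ 0 := inv_ne_zero hs0
  have hκa : κ = a * a := by rw [← mul_inv, ← hs, inv_inv]
  set o := a • δ
  have ho : IsIso β o := fun x y => by
    simp only [o, LinearMap.smul_apply, map_smul, smul_eq_mul, hsim, hκa]
    field_simp
  obtain ⟨r, hr, hrp⟩ := hM.kr_mem o a 0 0 a⁻¹ ho (by simp [ha])
  have hr' : ∀ p, r p = (a • o p.1, a⁻¹ • o p.2) := fun p => by simp [hrp]
  obtain ⟨o', ho', ho1, ho2⟩ := isIso_comp_inv hM.sym ho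
  have hri : ∀ p, r⁻¹ p = (a⁻¹ • o' p.1, a • o' p.2) := fun p => r.injective (by
    rw [app_inv, hr']; simp [smul_smul, ha, ho2])
  let γ : W →ₗ[F] W := LinearMap.fst F W W ∘ₗ g.toLinearMap ∘ₗ LinearMap.inr F W W
  have hgp : ∀ p : W × W, g p = (a • o p.1 + γ p.2, a⁻¹ • o p.2) := fun p => by
    conv_lhs => rw [show p = (p.1, 0) + (0, p.2) by simp, map_add, hgx]
    refine Prod.ext ?_ ?_
    · simp [γ, o, hακ, hκa, smul_smul]
    · simp [hgy, o, smul_smul, ha]
  obtain ⟨b', hb'⟩ := hsc (a⁻¹ • (o' ∘ₗ γ)) ⟨r⁻¹ * g, M.mul_mem (M.inv_mem hr) hg, fun p => by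
    show r⁻¹ (g p) = _
    rw [hgp, hri]
    simp [ho1, smul_smul, ha]⟩
  refine ⟨a, a * b', o, ha, ho, fun p => ?_⟩
  rw [hgp]
  congr 2
  have h1 := hb' p.2
  simp only [LinearMap.smul_apply, LinearMap.comp_apply] at h1
  rw [mul_smul, ← map_smul o, ← h1, map_smul, ho2, smul_smul, mul_inv_cancel₀ ha, one_smul]

lemma img_conj_eq_base_iff (x k : (W × W) ≃ₗ[F] (W × W)) :
    img (k⁻¹ * x * k) = base ↔ img (x * k) = img k := by
  rw [mul_assoc, img_mul]
  constructor
  · intro h
    have h1 := congrArg (Submodule.map k.toLinearMap) h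
    rw [← Submodule.map_comp] at h1
    rwa [show k.toLinearMap ∘ₗ (k⁻¹ : (W × W) ≃ₗ[F] (W × W)).toLinearMap = LinearMap.id from
      LinearMap.ext fun p => app_inv k p, Submodule.map_id] at h1
  · intro h
    rw [h, img, ← Submodule.map_comp,
      show (k⁻¹ : (W × W) ≃ₗ[F] (W × W)).toLinearMap ∘ₗ k.toLinearMap = LinearMap.id from
        LinearMap.ext fun p => inv_app k p, Submodule.map_id]

/-- Vectors of the image moved into it count towards the meet of the conjugate. -/
lemma le_meet_conj {x : (W × W) ≃ₗ[F] (W × W)} {T : Submodule F (W × W)} (hT : T ≤ img k)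
    (hxT : ∀ p ∈ T, x p ∈ img k) : finrank F T ≤ meet (k⁻¹ * x * k) := by
  rw [(Submodule.equivMapOfInjective _ ((k⁻¹ * x).injective) T).finrank_eq]
  refine Submodule.finrank_mono ?_
  rintro _ ⟨p, hp, rfl⟩
  refine ⟨⟨k⁻¹ p, mem_base.2 (mem_img.1 (hT hp)), ?_⟩, mem_base.2 (mem_img.1 (hxT p hp))⟩
  show k⁻¹ (x (k (k⁻¹ p))) = k⁻¹ (x p)
  rw [app_inv]

/-- A non-trivial shear fixing the image of an element fixes the member. -/
theorem semireg (hM : Hyp β M) (hsc : OnlyScalar M) (hk : k ∈ M) {t : (W × W) ≃ₗ[F] (W × W)} (ht : t ∈ M)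
    {c : F} (hc : c ≠ 0) (htp : ∀ p, t p = (p.1 + c • p.2, p.2)) (hfix : img (t * k) = img k) : img k = base := by
  obtain ⟨a, b, o, ha, ho, hp⟩ := exists_borel hM hsc (M.mul_mem (M.mul_mem (M.inv_mem hk) ht) hk)
    ((img_conj_eq_base_iff t k).2 hfix)
  set h := k⁻¹ * t * k
  let N : (W × W) →ₗ[F] (W × W) := h.toLinearMap - LinearMap.id
  let T : (W × W) →ₗ[F] (W × W) := t.toLinearMap - LinearMap.id
  have hNT : ∀ p, N p = k⁻¹ (T (k p)) := fun p => by
    show k⁻¹ (t (k p)) - p = k⁻¹ (t (k p) - k p)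
    rw [map_sub, inv_app]
  have hTp : ∀ p, T p = (c • p.2, 0) := fun p => by ext <;> simp [T, htp]
  have hN2 : ∀ p, N (N p) = 0 := fun p => by
    rw [hNT, hNT, app_inv, hTp, hTp, smul_zero, Prod.mk_zero_zero, map_zero]
  have hNp : ∀ p, N p = (a • o p.1 + b • o p.2 - p.1, a⁻¹ • o p.2 - p.2) := fun p => by ext <;> simp [N, hp]
  have h1 : ∀ x, a • o (a • o x - x) - (a • o x - x) = 0 := fun x => by
    have := congrArg Prod.fst (hN2 (x, 0))
    simpa [hNp] using this
  have h2 : ∀ y, a⁻¹ • o (a⁻¹ • o y - y) - (a⁻¹ • o y - y) = 0 := fun y => by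
    have := congrArg Prod.snd (hN2 (0, y))
    simpa [hNp] using this
  obtain ⟨v, hv, hvf⟩ : ∃ v : W, v ≠ 0 ∧ a • o v = v := by
    obtain ⟨w, hw⟩ : ∃ w : W, w ≠ 0 := by
      have h1 := hM.low
      exact ⟨_, ((Module.finBasis F W).ne_zero ⟨0, by omega⟩)⟩
    by_cases hww : a • o w = w
    · exact ⟨w, hw, hww⟩
    · exact ⟨a • o w - w, sub_ne_zero.2 hww, sub_eq_zero.1 (h1 w)⟩
  have hov : o v = a⁻¹ • v := by rw [eq_inv_smul_iff₀ ha, hvf]
  have haa : a⁻¹ * a⁻¹ = 1 := by
    have h3 := h2 v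
    simp only [map_sub, map_smul, hov, smul_smul, smul_sub] at h3
    have h4 : ((a⁻¹ * a⁻¹ - 1) * (a⁻¹ * a⁻¹ - 1)) • v = 0 := by
      linear_combination (norm := module) h3
    exact sub_eq_zero.1 (mul_self_eq_zero.1 ((smul_eq_zero.1 h4).resolve_right hv))
  have hainv : a⁻¹ = a := by
    conv_rhs => rw [← mul_one a, ← haa, ← mul_assoc, mul_inv_cancel₀ ha, one_mul]
  set o' := a • o
  set b' := b * a⁻¹
  have hb : ∀ y, b • o y = b' • o' y := fun y => by
    simp [o', b', smul_smul, mul_assoc, inv_mul_cancel₀ ha]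
  have hN' : ∀ p, N p = (o' p.1 - p.1 + b' • o' p.2, o' p.2 - p.2) := fun p => by
    rw [hNp, hb, hainv]
    simp [o']
    abel
  have h1' : ∀ x, o' (o' x - x) = o' x - x := fun x => sub_eq_zero.1 (h1 x)
  have h3 : ∀ y, b' • (o' (o' y) - o' y) = 0 := fun y => by
    have h4 := congrArg Prod.fst (hN2 (0, y))
    simp only [hN', map_zero, sub_zero, zero_add, Prod.fst_zero, map_smul, map_sub] at h4
    have h5 : (2 : F) • (b' • (o' (o' y) - o' y)) = 0 := by
      linear_combination (norm := module) h4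
    exact (smul_eq_zero.1 h5).resolve_left hM.two_ne
  by_cases hb0 : b' = 0
  · exfalso
    let R : W →ₗ[F] W := o' - LinearMap.id
    have hrN : finrank F (LinearMap.range N) = finrank F (LinearMap.range R) + finrank F (LinearMap.range R) := by
      rw [show N = R.prodMap R from LinearMap.ext fun p => by simp [hN', hb0, R]]
      have e : LinearMap.range (R.prodMap R)
          = LinearMap.range ((LinearMap.range R).subtype.prodMap (LinearMap.range R).subtype) := by
        rw [LinearMap.range_prodMap, LinearMap.range_prodMap, Submodule.range_subtype]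
      rw [e, LinearMap.finrank_range_of_inj
        ((Submodule.subtype_injective _).prodMap (Submodule.subtype_injective _)), finrank_prod]
    have hrT : finrank F (LinearMap.range T) = finrank F W := by
      have : LinearMap.range T = (base : Submodule F (W × W)) := by
        refine le_antisymm ?_ fun p hp => ⟨(0, c⁻¹ • p.1), ?_⟩
        · rintro _ ⟨p, rfl⟩
          exact mem_base.2 (by rw [hTp])
        · rw [hTp]
          refine Prod.ext ?_ (mem_base.1 hp).symm
          simp [smul_smul, hc]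
      rw [this, finrank_base]
    have hNT' : finrank F (LinearMap.range N) = finrank F (LinearMap.range T) := by
      rw [show N = (k⁻¹ : (W × W) ≃ₗ[F] (W × W)).toLinearMap ∘ₗ T ∘ₗ k.toLinearMap from LinearMap.ext hNT,
        LinearMap.range_comp, LinearMap.range_comp, LinearEquiv.range, Submodule.map_top]
      exact ((Submodule.equivMapOfInjective _ (k⁻¹).injective _).finrank_eq).symm
    obtain ⟨j, hj⟩ := hM.odd
    omega
  · have ho1 : ∀ y, o' y = y := fun y => by
      have hinj : Function.Injective o' := fun x y hxy => hM.sym.iso_injective ho (by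
        simpa [o', smul_right_injective W ha |>.eq_iff] using hxy)
      exact hinj (sub_eq_zero.1 ((smul_eq_zero.1 (h3 y)).resolve_left hb0))
    refine Submodule.eq_of_le_of_finrank_le ?_ (by rw [finrank_img, finrank_base])
    rintro _ ⟨⟨x, y⟩, hp', rfl⟩
    obtain rfl : y = 0 := mem_base.1 hp'
    have h4 : N (x, 0) = 0 := by rw [hN']; simp [ho1]
    have h5 : T (k (x, 0)) = 0 := by
      rw [hNT] at h4
      exact (k⁻¹).injective (h4.trans (map_zero _).symm)
    rw [hTp] at h5
    exact mem_base.2 ((smul_eq_zero.1 (Prod.ext_iff.1 h5).1).resolve_left hc)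

/-- A reflection fixing the image of `k` commutes with the conjugate shears. -/
theorem refl_commute (hM : Hyp β M) (hsc : OnlyScalar M) (hk : k ∈ M) {v : W} (hv : β v v ≠ 0)
    {r : (W × W) ≃ₗ[F] (W × W)} (hr : r ∈ M) (hrp : ∀ p, r p = (refl β v p.1, refl β v p.2))
    (hfix : img (r * k) = img k) {t : (W × W) ≃ₗ[F] (W × W)} {c : F} (htp : ∀ p, t p = (p.1 + c • p.2, p.2))
    (p : W × W) : r (k (t (k⁻¹ p))) = k (t (k⁻¹ (r p))) := by
  obtain ⟨a, b, o, ha, ho, hp⟩ := exists_borel hM hsc (M.mul_mem (M.mul_mem (M.inv_mem hk) hr) hk)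
    ((img_conj_eq_base_iff r k).2 hfix)
  set h := k⁻¹ * r * k with hh
  have hr2 : ∀ q, r (r q) = q := fun q => by simp [hrp, hM.sym.refl_refl]
  have hh2 : ∀ q, h (h q) = q := fun q => by
    show k⁻¹ (r (k (k⁻¹ (r (k q))))) = q
    rw [app_inv, hr2, inv_app]
  have h1 : ∀ x, (a * a) • o (o x) = x := fun x => by
    have := congrArg Prod.fst (hh2 (x, 0))
    simpa [hp, map_smul, smul_smul] using this
  have h2 : ∀ y, (a⁻¹ * a⁻¹) • o (o y) = y := fun y => by
    have := congrArg Prod.snd (hh2 (0, y))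
    simpa [hp, map_smul, smul_smul] using this
  have h4 : a * a = a⁻¹ * a⁻¹ := by
    have h3 : o (o v) = (a * a)⁻¹ • v := by rw [eq_inv_smul_iff₀ (mul_ne_zero ha ha), h1]
    have h5 := h2 v
    rw [h3, smul_smul] at h5
    have h6 : (a⁻¹ * a⁻¹ * (a * a)⁻¹ - 1) • v = 0 := by rw [sub_smul, h5, one_smul, sub_self]
    have hv0 : v ≠ 0 := fun h0 => hv (by simp [h0])
    have h7 := sub_eq_zero.1 ((smul_eq_zero.1 h6).resolve_right hv0)
    field_simp at h7 ⊢
    linear_combination -h7
  have haa : a * a = 1 := by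
    have h5 : (a * a - 1) * (a * a + 1) = 0 := by
      field_simp at h4
      linear_combination h4
    refine sub_eq_zero.1 ((mul_eq_zero.1 h5).resolve_right fun h6 => ?_)
    -- the fixed space would be too small
    have hinv : a⁻¹ = -a := by
      refine inv_eq_of_mul_eq_one_right ?_
      linear_combination -h6
    let o' : W →ₗ[F] W := a • o
    let Fp := LinearMap.ker (h.toLinearMap - LinearMap.id)
    let K1 := LinearMap.ker (o' - LinearMap.id)
    let K2 := LinearMap.ker (o' + LinearMap.id)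
    have hFp : finrank F Fp ≤ finrank F W := by
      let π : Fp →ₗ[F] W := LinearMap.snd F W W ∘ₗ Fp.subtype
      have e1 := LinearMap.finrank_range_add_finrank_ker π
      have e2 : LinearMap.range π ≤ K2 := by
        rintro _ ⟨⟨q, hq⟩, rfl⟩
        simp only [Fp, LinearMap.mem_ker, LinearMap.sub_apply, LinearEquiv.coe_coe, LinearMap.id_coe, id_eq,
          sub_eq_zero, hp, hinv] at hq
        have := congrArg Prod.snd hq
        simp only [neg_smul] at this
        simp only [K2, π, LinearMap.mem_ker, LinearMap.add_apply, LinearMap.comp_apply, Submodule.subtype_apply,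
          LinearMap.snd_apply, LinearMap.id_coe, id_eq, o', LinearMap.smul_apply]
        conv_lhs => arg 2; rw [← this]
        exact add_neg_cancel _
      have e3 : finrank F (LinearMap.ker π) ≤ finrank F K1 := by
        let ρ : LinearMap.ker π →ₗ[F] K1 := (LinearMap.fst F W W ∘ₗ Fp.subtype ∘ₗ (LinearMap.ker π).subtype).codRestrict K1
          fun ⟨⟨q, hq⟩, hq'⟩ => by
            simp only [Fp, LinearMap.mem_ker, LinearMap.sub_apply, LinearEquiv.coe_coe, LinearMap.id_coe, id_eq,
              sub_eq_zero, hp] at hq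
            simp only [π, LinearMap.mem_ker, LinearMap.comp_apply, Submodule.subtype_apply, LinearMap.snd_apply] at hq'
            have := congrArg Prod.fst hq
            simp only [hq', map_zero, smul_zero, add_zero] at this
            simp [K1, o', this]
        refine LinearMap.finrank_le_finrank_of_injective (f := ρ) fun x y hxy => ?_
        have h7 := congrArg Subtype.val hxy
        simp only [ρ, LinearMap.codRestrict_apply, LinearMap.comp_apply, Submodule.subtype_apply,
          LinearMap.fst_apply] at h7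
        have hx := x.2
        have hy := y.2
        simp only [π, LinearMap.mem_ker, LinearMap.comp_apply, Submodule.subtype_apply, LinearMap.snd_apply] at hx hy
        exact Subtype.ext (Subtype.ext (Prod.ext h7 (hx.trans hy.symm)))
      have e4 : finrank F K1 + finrank F K2 ≤ finrank F W := by
        have e5 := Submodule.finrank_sup_add_finrank_inf_eq K1 K2
        have e6 : K1 ⊓ K2 = ⊥ := (Submodule.eq_bot_iff _).2 fun x ⟨hx1, hx2⟩ => by
          simp only [K1, K2, SetLike.mem_coe, LinearMap.mem_ker, LinearMap.sub_apply, LinearMap.add_apply,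
            LinearMap.id_coe, id_eq] at hx1 hx2
          have : (2 : F) • x = 0 := by linear_combination (norm := module) hx2 - hx1
          exact (smul_eq_zero.1 this).resolve_left hM.two_ne
        rw [e6, finrank_bot] at e5
        have := Submodule.finrank_le (K1 ⊔ K2)
        omega
      have := Submodule.finrank_mono e2
      omega
    -- yet it is as large as that of the reflection
    have hbig : finrank F W + finrank F W ≤ finrank F Fp + 2 := by
      let Fr := LinearMap.ker (((β v) ∘ₗ LinearMap.fst F W W).prod ((β v) ∘ₗ LinearMap.snd F W W))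
      have e1 := LinearMap.finrank_range_add_finrank_ker
        (((β v) ∘ₗ LinearMap.fst F W W).prod ((β v) ∘ₗ LinearMap.snd F W W))
      have e2 := Submodule.finrank_le
        (LinearMap.range (((β v) ∘ₗ LinearMap.fst F W W).prod ((β v) ∘ₗ LinearMap.snd F W W)))
      rw [finrank_prod, finrank_self] at e2
      rw [finrank_prod] at e1
      have e3 : finrank F Fr ≤ finrank F Fp := by
        rw [(Submodule.equivMapOfInjective _ (k⁻¹).injective Fr).finrank_eq]
        refine Submodule.finrank_mono ?_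
        rintro _ ⟨q, hq, rfl⟩
        simp [Fr] at hq
        simp only [Fp, LinearMap.mem_ker, LinearMap.sub_apply, LinearEquiv.coe_coe, LinearMap.id_coe, id_eq,
          sub_eq_zero]
        show k⁻¹ (r (k (k⁻¹ q))) = k⁻¹ q
        rw [app_inv, hrp, Sym.refl_perp hq.1, Sym.refl_perp hq.2]
      simp only [Fr] at e3
      omega
    have := hM.low
    omega
  have hht : ∀ q, h (t q) = t (h q) := fun q => by
    rw [htp, htp, hp, hp]
    refine Prod.ext ?_ ?_
    · simp only [map_add, map_smul, smul_add, smul_smul]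
      rw [show c * a⁻¹ = a * c by field_simp; linear_combination -c * haa]
      abel
    · rfl
  calc r (k (t (k⁻¹ p))) = k (h (t (k⁻¹ p))) := by
        show _ = k (k⁻¹ (r (k (t (k⁻¹ p)))))
        rw [app_inv]
    _ = k (t (h (k⁻¹ p))) := by rw [hht]
    _ = k (t (k⁻¹ (r p))) := by
        show k (t (k⁻¹ (r (k (k⁻¹ p))))) = _
        rw [app_inv]

/-- The projection of the meet. -/
noncomputable def proj (k : (W × W) ≃ₗ[F] (W × W)) : Submodule F W :=
  (img k ⊓ base).map (LinearMap.fst F W W)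

lemma mem_proj {a : W} : a ∈ proj k ↔ (a, 0) ∈ img k := by
  constructor
  · rintro ⟨⟨x, y⟩, ⟨h1, h2⟩, rfl⟩
    obtain rfl : y = 0 := mem_base.1 h2
    exact h1
  · exact fun h => ⟨(a, 0), ⟨h, mem_base.2 rfl⟩, rfl⟩

lemma finrank_proj : finrank F (proj k) = meet k := by
  have hinj : Function.Injective ((LinearMap.fst F W W).domRestrict (img k ⊓ base)) := by
    rintro ⟨⟨x, y⟩, hp⟩ ⟨⟨x', y'⟩, hp'⟩ h
    have h1 : x = x' := h
    have h2 : y = 0 := mem_base.1 hp.2
    have h3 : y' = 0 := mem_base.1 hp'.2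
    subst h1 h2 h3
    rfl
  rw [meet, ← LinearMap.finrank_range_of_inj hinj, LinearMap.range_domRestrict]
  rfl

/-- The second projection of the image. -/
lemma snd_img (hM : Hyp β M) (hk : k ∈ M) :
    (img k).map (LinearMap.snd F W W) = perp β (proj k) := by
  refine Submodule.eq_of_le_of_finrank_le ?_ ?_
  · rintro _ ⟨p, hp, rfl⟩ a ha
    have h1 := hM.om_img hk (mem_proj.1 ha) hp
    simpa [om, LinearMap.BilinForm.isOrtho_def] using h1
  · have e1 := LinearMap.finrank_range_add_finrank_ker ((LinearMap.snd F W W).domRestrict (img k))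
    rw [LinearMap.range_domRestrict, finrank_img] at e1
    have e2 : finrank F (LinearMap.ker ((LinearMap.snd F W W).domRestrict (img k))) ≤ meet k := by
      rw [LinearMap.ker_domRestrict, (Submodule.equivMapOfInjective _ (img k).injective_subtype _).finrank_eq]
      refine Submodule.finrank_mono ?_
      rintro _ ⟨q, hq, rfl⟩
      exact ⟨q.2, hq⟩
    have e3 := hM.sym.finrank_perp (proj k)
    rw [finrank_proj] at e3
    omega

lemma mem_img_of_om (hM : Hyp β M) (hk : k ∈ M) {p : W × W} (h : ∀ q ∈ img k, om β p q = 0) : p ∈ img k := by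
  refine mem_img.2 (hM.nondeg _ fun x => ?_)
  have h1 := h _ (app_mem_img (g := k) x)
  rw [← app_inv k p, hM.iso k hk] at h1
  simpa [om] using h1

/-- A degenerate projection forces the member. -/
theorem nd_proj (hM : Hyp β M) (hsc : OnlyScalar M) (hk : k ∈ M) (hne : img k ≠ base)
    (hF : Fixes M (meet k + 1)) : ND β (proj k) := by
  intro z hz hz'
  by_contra hz0
  obtain ⟨⟨x, y⟩, hX, rfl⟩ : z ∈ (img k).map (LinearMap.snd F W W) := by
    rw [snd_img hM hk]
    exact fun a ha => by
      show β a z = 0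
      rw [hM.symm]; exact hz' a ha
  simp only [LinearMap.snd_apply] at hz hz0
  obtain ⟨t, ht, htp⟩ := hM.exists_shear 1
  set T := (img k ⊓ base) ⊔ Submodule.span F {(x, y)}
  have hT : T ≤ img k := sup_le inf_le_left ((Submodule.span_singleton_le_iff_mem _ _).2 hX)
  have hlt : meet k < finrank F T := by
    refine Submodule.finrank_lt_finrank_of_lt (lt_of_le_of_ne le_sup_left fun h => hz0 ?_)
    have : (x, y) ∈ img k ⊓ base := h ▸ Submodule.mem_sup_right (Submodule.mem_span_singleton_self _)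
    exact mem_base.1 this.2
  have hxT : ∀ p ∈ T, t p ∈ img k := by
    intro p hp
    obtain ⟨q, hq, r, hr, rfl⟩ := Submodule.mem_sup.1 hp
    obtain ⟨s, rfl⟩ := Submodule.mem_span_singleton.1 hr
    rw [map_add, map_smul]
    refine add_mem ?_ (Submodule.smul_mem _ _ ?_)
    · rw [htp, mem_base.1 hq.2, smul_zero, add_zero, ← mem_base.1 hq.2]
      exact hq.1
    · rw [htp, one_smul, show (((x, y) : W × W).1 + ((x, y) : W × W).2, ((x, y) : W × W).2)
        = (x, y) + (y, 0) by simp]
      exact add_mem hX (mem_proj.1 hz)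
  have h1 := hF _ (M.mul_mem (M.mul_mem (M.inv_mem hk) ht) hk) (Nat.succ_le_of_lt
    (lt_of_lt_of_le hlt (le_meet_conj hT hxT)))
  exact hne (semireg hM hsc hk ht one_ne_zero htp ((img_conj_eq_base_iff t k).1 h1))

/-- A reflection whose fixed part of the image is larger than the meet fixes the image. -/
lemma refl_fix (hM : Hyp β M) (hk : k ∈ M) (hF : Fixes M (meet k + 1)) (hsmall : meet k + 3 ≤ finrank F W)
    (v : W) {r : (W × W) ≃ₗ[F] (W × W)} (hr : r ∈ M) (hrp : ∀ p, r p = (refl β v p.1, refl β v p.2)) :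
    img (r * k) = img k := by
  set T := img k ⊓ LinearMap.ker (((β v) ∘ₗ LinearMap.fst F W W).prod ((β v) ∘ₗ LinearMap.snd F W W))
  have hT : finrank F W ≤ finrank F T + 2 := by
    have e1 := Submodule.finrank_sup_add_finrank_inf_eq (img k)
      (LinearMap.ker (((β v) ∘ₗ LinearMap.fst F W W).prod ((β v) ∘ₗ LinearMap.snd F W W)))
    have e2 := LinearMap.finrank_range_add_finrank_ker
      (((β v) ∘ₗ LinearMap.fst F W W).prod ((β v) ∘ₗ LinearMap.snd F W W))
    have e3 := Submodule.finrank_le (LinearMap.range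
      (((β v) ∘ₗ LinearMap.fst F W W).prod ((β v) ∘ₗ LinearMap.snd F W W)))
    rw [finrank_prod, finrank_self] at e3
    have e4 := Submodule.finrank_le (img k ⊔
      LinearMap.ker (((β v) ∘ₗ LinearMap.fst F W W).prod ((β v) ∘ₗ LinearMap.snd F W W)))
    rw [finrank_img] at e1
    simp only [finrank_prod] at e2 e4
    show finrank F W ≤ finrank F ↥(img k ⊓ _) + 2
    omega
  refine (img_conj_eq_base_iff r k).1 (hF _ (M.mul_mem (M.mul_mem (M.inv_mem hk) hr) hk) ?_)
  refine le_trans (by omega : meet k + 1 ≤ finrank F T) (le_meet_conj inf_le_left fun p hp => ?_)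
  obtain ⟨h1, h2⟩ := hp
  simp at h2
  rw [hrp, Sym.refl_perp h2.1, Sym.refl_perp h2.2]
  exact h1

/-- A fixed image contains a pure vector at the centre of the reflection. -/
lemma pure_of_refl_fix (hM : Hyp β M) (hk : k ∈ M) {v : W} (hv : β v v ≠ 0)
    {r : (W × W) ≃ₗ[F] (W × W)} (hrp : ∀ p, r p = (refl β v p.1, refl β v p.2)) (hfix : img (r * k) = img k) :
    ∃ a c : F, (a ≠ 0 ∨ c ≠ 0) ∧ (a • v, c • v) ∈ img k := by
  obtain ⟨p, hp, hne⟩ : ∃ p ∈ img k, ¬ (β v p.1 = 0 ∧ β v p.2 = 0) := by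
    by_contra! hall
    have h1 : ((v, 0) : W × W) ∈ img k := mem_img_of_om hM hk fun q hq => by
      simp [om, (hall q hq).2]
    exact hv (hall _ h1).1
  have hrp' : r p ∈ img k := by rw [← hfix, img_mul]; exact ⟨p, hp, rfl⟩
  refine ⟨2 / β v v * β v p.1, 2 / β v v * β v p.2, ?_, ?_⟩
  · have h2 : (2 : F) / β v v ≠ 0 := div_ne_zero hM.two_ne hv
    by_contra! h
    exact hne ⟨(mul_eq_zero.1 h.1).resolve_left h2, (mul_eq_zero.1 h.2).resolve_left h2⟩
  · convert Submodule.sub_mem _ hp hrp' using 1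
    rw [hrp]
    ext <;> simp [refl_apply]

/-- The graph over the orthogonal of the projection. -/
lemma exists_graph (hM : Hyp β M) (hk : k ∈ M) (hnd : ND β (proj k)) :
    ∃ φ : W →ₗ[F] W, ∀ y ∈ perp β (proj k), φ y ∈ perp β (proj k) ∧ (φ y, y) ∈ img k ∧
      ∀ p ∈ perp β (proj k), (p, y) ∈ img k → p = φ y := by
  have hs := hM.sym
  have huniq : ∀ y p q, p ∈ perp β (proj k) → q ∈ perp β (proj k) → (p, y) ∈ img k → (q, y) ∈ img k → p = q := by
    intro y p q hp hq hp' hq'
    have h1 : p - q ∈ proj k ⊓ perp β (proj k) := ⟨mem_proj.2 (by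
      simpa using Submodule.sub_mem _ hp' hq'), Submodule.sub_mem _ hp hq⟩
    rw [hs.inf_perp hnd, Submodule.mem_bot] at h1
    exact sub_eq_zero.1 h1
  set N := img k ⊓ (perp β (proj k)).prod (perp β (proj k))
  let π : N →ₗ[F] W := LinearMap.snd F W W ∘ₗ N.subtype
  have hπ : LinearMap.ker π = ⊥ := LinearMap.ker_eq_bot'.2 fun ⟨⟨p, y⟩, hN⟩ h => by
    obtain rfl : y = 0 := h
    have := huniq 0 p 0 hN.2.1 (zero_mem _) hN.1 (zero_mem _)
    subst this
    rfl
  obtain ⟨ψ, hψ⟩ := π.exists_leftInverse_of_injective hπ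
  refine ⟨LinearMap.fst F W W ∘ₗ N.subtype ∘ₗ ψ, fun y hy => ?_⟩
  obtain ⟨n, hn⟩ : ∃ n, π n = y := by
    obtain ⟨⟨p, y'⟩, hp, hp2⟩ : y ∈ (img k).map (LinearMap.snd F W W) := by rw [snd_img hM hk]; exact hy
    obtain rfl : y' = y := hp2
    have h1 : p ∈ proj k ⊔ perp β (proj k) := by rw [hs.sup_perp hnd]; trivial
    obtain ⟨a, ha, b, hb, rfl⟩ := Submodule.mem_sup.1 h1
    exact ⟨⟨(b, y'), by simpa using Submodule.sub_mem _ hp (mem_proj.1 ha), hb, hy⟩, rfl⟩
  have hψn : ψ y = n := by rw [← hn]; exact LinearMap.congr_fun hψ n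
  obtain ⟨⟨p, y'⟩, hN⟩ := n
  obtain rfl : y' = y := hn
  simp only [LinearMap.comp_apply, hψn, Submodule.subtype_apply, LinearMap.fst_apply]
  exact ⟨hN.2.1, hN.1, fun q hq hq' => huniq y' q p hq hN.2.1 hq' hN.1⟩

/-- A meet of small positive dimension forces the member. -/
theorem eq_base_of_small (hM : Hyp β M) (hsc : OnlyScalar M) (hk : k ∈ M) (hF : Fixes M (meet k + 1))
    (h1 : 1 ≤ meet k) (hsmall : meet k + 3 ≤ finrank F W) : img k = base := by
  by_contra hne
  have hs := hM.sym
  have hnd := nd_proj hM hsc hk hne hF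
  obtain ⟨φ, hφ⟩ := exists_graph hM hk hnd
  have hB := hs.finrank_perp (proj k)
  rw [finrank_proj] at hB
  obtain ⟨μ, hμ⟩ := hs.scalar_of_eigen (hs.nd_perp hnd) (Or.inl (by omega)) φ fun v hv hvv => by
    obtain ⟨r, hr, hrp⟩ := hM.exists_refl v
    obtain ⟨a, c, hac, hmem⟩ := pure_of_refl_fix hM hk hvv hrp (refl_fix hM hk hF hsmall v hr hrp)
    have hc : c ≠ 0 := by
      rintro rfl
      have ha : a • v ∈ proj k := mem_proj.2 (by simpa using hmem)
      have h2 : a • v ∈ proj k ⊓ perp β (proj k) := ⟨ha, Submodule.smul_mem _ _ hv⟩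
      rw [hs.inf_perp hnd, Submodule.mem_bot, smul_eq_zero] at h2
      exact hvv (by simp [h2.resolve_left (hac.resolve_right (not_not_intro rfl))])
    refine ⟨c⁻¹ * a, ((hφ v hv).2.2 _ (Submodule.smul_mem _ _ hv) ?_).symm⟩
    simpa [smul_smul, hc] using Submodule.smul_mem _ c⁻¹ hmem
  obtain ⟨h, hh, hhp⟩ := hM.kr_mem LinearMap.id 0 1 (-1) μ isIso_id (by ring)
  have := hM.high
  have hb := hF (h * k) (M.mul_mem hh hk) (by
    refine le_trans (by omega : meet k + 1 ≤ finrank F (perp β (proj k))) ?_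
    have hinj : Function.Injective ((LinearMap.inl F W W).domRestrict (perp β (proj k))) := fun x y h =>
      Subtype.ext (congrArg Prod.fst h)
    rw [← LinearMap.finrank_range_of_inj hinj, LinearMap.range_domRestrict]
    refine Submodule.finrank_mono ?_
    rintro _ ⟨y, hy, rfl⟩
    refine ⟨?_, mem_base.2 rfl⟩
    rw [img_mul]
    refine ⟨(μ • y, y), ?_, ?_⟩
    · rw [← hμ y hy]; exact (hφ y hy).2.1
    · simp [hhp])
  obtain ⟨a, ha, ha0⟩ := Submodule.exists_mem_ne_zero_of_ne_bot (p := proj k) fun h0 => by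
    rw [← finrank_proj, h0, finrank_bot] at h1
    omega
  have h2 : h (a, 0) ∈ img (h * k) := by rw [img_mul]; exact ⟨_, mem_proj.1 ha, rfl⟩
  rw [hb, mem_base, hhp] at h2
  simp at h2
  exact ha0 h2

/-- If every positive meet forces the member, `M` consists of Kronecker products. -/
theorem tens_of_fixes_one (hM : Hyp β M) (hsc : OnlyScalar M) (h : Fixes M 1) (hg : g ∈ M) : Tens β g := by
  have hfix : ∀ k ∈ M, img k = base → Tens β k := fun k hk hb => by
    obtain ⟨a, b, o, hB⟩ := exists_borel hM hsc hk hb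
    exact hB.tens
  by_cases hm : 1 ≤ meet g
  · exact hfix g hg (h g hg hm)
  have hlow := hM.low
  obtain ⟨v, -, hv⟩ := hM.sym.exists_aniso (B := ⊤) (fun x _ hx => hM.nondeg x fun y => hx y Submodule.mem_top)
    (fun h0 => by
      have := finrank_top F W
      rw [h0, finrank_bot] at this
      omega)
  obtain ⟨r, hr, hrp⟩ := hM.exists_refl v
  have hm0 : meet g = 0 := by omega
  obtain ⟨a, c, hac, hmem⟩ := pure_of_refl_fix hM hg hv hrp
    (refl_fix hM hg (by rw [hm0]; exact h) (by omega) v hr hrp)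
  obtain ⟨a', c', hdet⟩ : ∃ a' c' : F, a' * a + c' * c = 1 := by
    rcases hac with ha | hc
    · exact ⟨a⁻¹, 0, by simp [ha]⟩
    · exact ⟨0, c⁻¹, by simp [hc]⟩
  obtain ⟨x, hx, hxp⟩ := hM.kr_mem LinearMap.id a' c' (-c) a isIso_id (by linear_combination hdet)
  have hxg : 1 ≤ meet (x * g) := by
    refine Submodule.one_le_finrank_iff.2 fun h0 => ?_
    have h1 : ((v, 0) : W × W) ∈ img (x * g) ⊓ base := by
      refine ⟨?_, mem_base.2 rfl⟩
      rw [img_mul]
      refine ⟨_, hmem, ?_⟩
      simp only [LinearEquiv.coe_coe, hxp, kr_apply, LinearMap.id_apply, smul_smul, ← add_smul, hdet, one_smul]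
      rw [show -c * a + a * c = 0 by ring, zero_smul]
    rw [h0, Submodule.mem_bot] at h1
    have h2 : v = 0 := (Prod.ext_iff.1 h1).1
    exact hv (by rw [h2]; simp)
  have h1 := hfix _ (M.mul_mem hx hg) (h _ (M.mul_mem hx hg) hxg)
  have h2 : Tens β x := ⟨a', c', -c, a, LinearMap.id, isIso_id, by linear_combination hdet, hxp⟩
  simpa using (h2.inv hM.sym).mul h1

end CfsgLib.SpO90
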